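import Mathlib
import Cfsg.Agent.Base
import Cfsg.Agent.Lib.LocEven.CharP
import Cfsg.Agent.Lib.PComp.Pumpup
import Cfsg.Agent.Lib.QT.CComp

/-! Definitions for the normality of components of 2-central involution centralisers in
quasithin groups of even type. -/

set_option autoImplicit false

namespace H4.Q16
open Subgroup Cfsg H68

/-- Involutions of a Sylow 2-subgroup are central in it. -/
def Cen (L : Type*) [Group L] : Prop :=
  ∀ U : Sylow 2 L, ∀ a ∈ U, a * a = 1 → ∀ b ∈ U, a * b = b * a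

/-- The dihedral case. -/
def Dih (L : Type*) [Group L] : Prop :=
  PRankLE 2 2 (MulAut L) ∧ ∀ U : Sylow 2 L, ∃ a ∈ U, ∃ b ∈ U, orderOf a = 4 ∧ b * b = 1 ∧
    b * a * b⁻¹ = a⁻¹ ∧ b ∉ zpowers a ∧ ∀ c ∈ U, (∀ d ∈ U, c * d = d * c) → c = 1 ∨ c = a * a

/-- What is used about `L₂(2ⁿ)`, `Sz(2ⁿ)` and `L₂(p)` (`p` a Fermat or Mersenne prime). -/
structure Th (r : ℕ) (L : Type*) [Group L] : Prop where
  simple : IsSimpleGroup L
  na : ¬ IsMulCommutative L
  pr : r.Prime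
  odd : r ≠ 2
  four : ∃ a b : L, orderOf a = 2 ∧ orderOf b = 2 ∧ a ≠ b ∧ a * b = b * a
  conj : ∀ a b : L, orderOf a = 2 → orderOf b = 2 → IsConj a b
  cen : ∀ a : L, orderOf a = 2 → IsPGroup 2 (centralizer ({a} : Set L))
  out : IsCyclic (Out L)
  loc : ∃ (Q : Subgroup L) (x : L), Q ≠ ⊥ ∧ IsPGroup 2 Q ∧ orderOf x = r ∧
    x ∈ normalizer (Q : Set L)
  outer : ∀ φ : MulAut L, φ * φ = 1 → φ ∉ Inn L → ¬ H70.CharP 2 (fixedSubgroup φ) ∧
    ∃ x s : L, orderOf x = r ∧ φ x = x ∧ φ s = s ∧ s * x * s⁻¹ = x⁻¹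
  syl : Cen L ∨ Dih L

/-- What is used about the simple groups of the even type list. -/
def KF (K : Type*) [Group K] : Prop :=
  ∀ x : K, orderOf x = 2 → H70.CharP 2 (centralizer ({x} : Set K)) ∨
    (4 ∣ (centralizer ({x} : Set K)).index ∧ (13 ∣ Nat.card (centralizer ({x} : Set K)) →
      x ∉ ⁅centralizer ({x} : Set K), centralizer ({x} : Set K)⁆))

variable {G : Type*} [Group G]

/-- `x` acts on `A` like an element of `A`. -/
def In (A : Subgroup G) (x : G) : Prop := ∃ a ∈ A, ∀ y ∈ A, x * y * x⁻¹ = a * y * a⁻¹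

/-- The stabiliser of the pair `{A, B}`. -/
def NP (A B : Subgroup G) : Subgroup G where
  carrier := {g | (cj g A = A ∧ cj g B = B) ∨ (cj g A = B ∧ cj g B = A)}
  one_mem' := .inl ⟨cj_one A, cj_one B⟩
  mul_mem' {g h} := by
    rintro (⟨a, b⟩ | ⟨a, b⟩) (⟨c, d⟩ | ⟨c, d⟩) <;> simp only [Set.mem_setOf_eq, cj_mul, a, b, c, d,
      and_self, true_or, or_true]
  inv_mem' {g} := by
    rintro (⟨a, b⟩ | ⟨a, b⟩)
    · exact .inl ⟨by rw [← a, cj_inv_cj, a], by rw [← b, cj_inv_cj, b]⟩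
    · exact .inr ⟨b ▸ cj_inv_cj g B, a ▸ cj_inv_cj g A⟩

theorem mem_NP {A B : Subgroup G} {g : G} :
    g ∈ NP A B ↔ (cj g A = A ∧ cj g B = B) ∨ (cj g A = B ∧ cj g B = A) := Iff.rfl

/-- The counterexample: `A ≠ B` are components of `C(z)` interchanged by `u ∈ T`. -/
structure GS (r : ℕ) (T : Sylow 2 G) (z u : G) (A B : Subgroup G) : Prop where
  qt : IsQuasithin G
  core : ∀ t : G, orderOf t = 2 → oddCore (centralizer ({t} : Set G)) = ⊥
  kf : ∀ t : G, orderOf t = 2 → ∀ K : Subgroup G, IsComponentOf K (centralizer {t}) →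
    KF (K ⧸ center K)
  oz : orderOf z = 2
  zT : z ∈ (T : Subgroup G)
  zc : (T : Subgroup G) ≤ centralizer {z}
  cA : IsComponentOf A (centralizer {z})
  cB : IsComponentOf B (centralizer {z})
  ne : A ≠ B
  uT : u ∈ (T : Subgroup G)
  uA : cj u A = B
  uB : cj u B = A
  cz : centralizer {z} ≤ NP A B
  th : Th r (A ⧸ center A)
  cyc : PRankLE r 1 (A ⧸ center A)
  zA : IsPGroup 2 (center A)
  cov : center A ≠ ⊥ → 13 ∣ Nat.card (A ⧸ center A) ∧ Cen (A ⧸ center A) ∧ PRankAtLeast 2 2 A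

/-- A vertical pumpup `K` of `M`, seen modulo the centraliser of `K`. -/
structure KS (r : ℕ) (K M S S1 : Subgroup G) (z : G) : Prop where
  nK : K.Normal
  sK : IsSimpleGroup K
  naK : ¬ IsMulCommutative K
  kf : KF K
  gen : K ⊔ zpowers z = ⊤
  cK : centralizer (K : Set G) = ⊥
  oz : orderOf z = 2
  comp : IsComponentOf M (K ⊓ centralizer {z})
  th : Th r (M ⧸ center M)
  zM : IsPGroup 2 (center M)
  syl : SylowIn 2 S K
  zS : z ∈ normalizer (S : Set G)
  le : S1 ≤ S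
  idx : S1.relIndex S ∣ 2
  cz : S1 ≤ centralizer {z}
  nM : S1 ≤ normalizer (M : Set G)
  sM : SylowIn 2 (S1 ⊓ M) M

/-- The simple case after the pumpup analysis. -/
structure Pr (r : ℕ) (A B : Subgroup G) : Prop where
  th : Th r A
  cyc : PRankLE r 1 A
  sw : ∃ u, cj u A = B ∧ cj u B = A
  comm : A ≤ centralizer (B : Set G)
  nn : normalizer (A : Set G) = normalizer (B : Set G)
  cA : ∀ a ∈ A, orderOf a = 2 → centralizer {a} ≤ normalizer (A : Set G)
  rk : ¬ r ∣ Nat.card (centralizer (A : Set G) ⊓ centralizer (B : Set G) : Subgroup G)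
  nc : ∀ a ∈ A, ∀ x ∈ A, ∀ y ∈ B, orderOf x = 2 → orderOf y = 2 → ¬ IsConj a (x * y)

/-- Two different conjugate pairs. -/
structure Two (r : ℕ) (A B A' B' : Subgroup G) : Prop where
  pr : Pr r A B
  ex : ∃ g, cj g A = A' ∧ cj g B = B'
  nA : A' ≠ A
  nB : A' ≠ B

/-- The involution `x` induces nontrivial inner automorphisms on `A` and on `B`. -/
def Inner (A B : Subgroup G) (x : G) : Prop :=
  ∃ a ∈ A, ∃ b ∈ B, ∃ c ∈ centralizer (A : Set G) ⊓ centralizer (B : Set G),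
    orderOf a = 2 ∧ orderOf b = 2 ∧ c * c = 1 ∧ x = a * b * c

theorem force_Defs : True := by
  have := @Cen.eq_1.{0}
  have := @Dih.eq_1.{0}
  have := @KF.eq_1.{0}
  have := @In.eq_1.{0}
  have := @NP.eq_1.{0}
  have := @Inner.eq_1.{0}
  trivial

end H4.Q16
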