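import Mathlib
import Cfsg.Agent.Base
import Cfsg.Agent.Lib.Q16.Defs

/-! Transport and ambient forms of `Th`. -/

set_option autoImplicit false

namespace H4.Q16
open Subgroup Cfsg H68

section
variable {G H : Type*} [Group G] [Group H] {r : ℕ}

theorem syl_comap (e : G ≃* H) (U : Sylow 2 H) : ∃ V : Sylow 2 G, ∀ x, x ∈ V ↔ e x ∈ U :=
  ⟨U.comapOfInjective e.toMonoidHom e.injective (by
    rw [MonoidHom.range_eq_top.2 e.surjective]; exact le_top), fun _ => Iff.rfl⟩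

theorem map_cent (e : G ≃* H) (x : G) :
    (centralizer ({x} : Set G)).map e.toMonoidHom = centralizer {e x} := by
  ext y
  obtain ⟨y, rfl⟩ := e.surjective y
  rw [show e y = e.toMonoidHom y from rfl, mem_map_iff_mem e.injective]
  simp only [mem_centralizer_singleton_iff, MulEquiv.toMonoidHom_eq_coe, MonoidHom.coe_coe,
    ← map_mul, e.apply_eq_iff_eq]

theorem Cen.congr (h : Cen G) (e : G ≃* H) : Cen H := fun U a ha h2 b hb => by
  obtain ⟨V, hV⟩ := syl_comap e U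
  obtain ⟨a, rfl⟩ := e.surjective a
  obtain ⟨b, rfl⟩ := e.surjective b
  rw [← map_mul, ← map_mul, h V a ((hV a).2 ha) (e.injective (by rw [map_mul, h2, map_one])) b
    ((hV b).2 hb)]

theorem rank_congr {p k : ℕ} (h : PRankLE p k G) (e : G ≃* H) : PRankLE p k H := fun A hA hp => by
  rw [← Nat.card_congr (e.symm.subgroupMap A).toEquiv.symm]
  refine h _ ⟨⟨fun a b => ?_⟩⟩ ?_
  · obtain ⟨a, rfl⟩ := (e.symm.subgroupMap A).surjective a
    obtain ⟨b, rfl⟩ := (e.symm.subgroupMap A).surjective b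
    rw [← map_mul, ← map_mul, hA.is_comm.comm]
  · rintro _ ⟨a, ha, rfl⟩
    rw [← map_pow, hp a ha, map_one]

theorem Dih.congr (h : Dih G) (e : G ≃* H) : Dih H := ⟨rank_congr h.1 (MulAut.congr e), fun U => by
  obtain ⟨V, hV⟩ := syl_comap e U
  obtain ⟨a, ha, b, hb, o, h1, h2, h3, h4⟩ := h.2 V
  refine ⟨e a, (hV a).1 ha, e b, (hV b).1 hb, by rw [e.orderOf_eq, o], by rw [← map_mul, h1, map_one],
    by rw [← map_inv, ← map_mul, ← map_mul, h2, map_inv], fun ⟨k, hk⟩ => h3 ⟨k, e.injective ?_⟩,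
    fun c hc hd => ?_⟩
  · simpa using hk
  · obtain ⟨c, rfl⟩ := e.surjective c
    refine (h4 c ((hV c).2 hc) fun d hd' => e.injective ?_).imp (fun h => by rw [h, map_one])
      fun h => by rw [h, map_mul]
    rw [map_mul, map_mul, hd _ ((hV d).1 hd')]⟩

theorem mem_inn_congr (e : G ≃* H) {φ : MulAut G} : MulAut.congr e φ ∈ Inn H ↔ φ ∈ Inn G := by
  constructor
  · rintro ⟨h, hh⟩
    refine ⟨e.symm h, MulEquiv.ext fun x => e.injective ?_⟩
    simpa [MulAut.congr] using DFunLike.congr_fun hh (e x)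
  · rintro ⟨g, rfl⟩
    exact ⟨e g, MulEquiv.ext fun x => by simp [MulAut.congr]⟩

theorem Th.congr (h : Th r G) (e : G ≃* H) : Th r H where
  simple := have := h.simple; e.symm.isSimpleGroup
  na := fun c => h.na ⟨⟨fun a b => e.injective (by rw [map_mul, map_mul, c.is_comm.comm])⟩⟩
  pr := h.pr
  odd := h.odd
  four := let ⟨a, b, h1, h2, h3, h4⟩ := h.four
    ⟨e a, e b, by rw [e.orderOf_eq, h1], by rw [e.orderOf_eq, h2], e.injective.ne h3,
      by rw [← map_mul, h4, map_mul]⟩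
  conj := fun a b ha hb => by
    simpa using e.toMonoidHom.map_isConj (h.conj (e.symm a) (e.symm b) (by rw [e.symm.orderOf_eq, ha])
      (by rw [e.symm.orderOf_eq, hb]))
  cen := fun a ha => by
    obtain ⟨a, rfl⟩ := e.surjective a
    rw [← map_cent]
    exact (h.cen a (by rw [← e.orderOf_eq, ha])).map _
  out := by
    have := h.out
    refine isCyclic_of_surjective (QuotientGroup.map (Inn G) (Inn H) (MulAut.congr e).toMonoidHom
      fun φ hφ => (mem_inn_congr e).2 hφ) fun y => ?_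
    obtain ⟨φ, rfl⟩ := QuotientGroup.mk_surjective y
    obtain ⟨φ, rfl⟩ := (MulAut.congr e).surjective φ
    exact ⟨φ, rfl⟩
  loc := let ⟨Q, x, h1, h2, h3, h4⟩ := h.loc
    ⟨Q.map e.toMonoidHom, e x, fun c => h1 ((map_eq_bot_iff_of_injective _ e.injective).1 c), h2.map _,
      by rw [e.orderOf_eq, h3], le_normalizer_map _ (mem_map_of_mem _ h4)⟩
  outer := fun φ h2 hn => by
    obtain ⟨φ, rfl⟩ := (MulAut.congr e).surjective φ
    obtain ⟨h3, x, s, o, h4, h5, h6⟩ := h.outer φ ((MulAut.congr e).injective (by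
      rw [map_mul, h2, map_one])) fun c => hn ((mem_inn_congr e).2 c)
    refine ⟨fun c => h3 ((H70.charP_map_iff (f := e.toMonoidHom) e.injective).1 ?_), e x, e s,
      by rw [e.orderOf_eq, o], by simp [MulAut.congr, h4], by simp [MulAut.congr, h5],
      by rw [← map_inv, ← map_mul, ← map_mul, h6, map_inv]⟩
    convert c
    ext y
    obtain ⟨y, rfl⟩ := e.surjective y
    rw [show e y = e.toMonoidHom y from rfl, mem_map_iff_mem e.injective]
    change φ y = y ↔ MulAut.congr e φ (e y) = e y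
    simp [MulAut.congr]
  syl := h.syl.imp (·.congr e) (·.congr e)

theorem KF.congr (h : KF G) (e : G ≃* H) : KF H := fun x hx => by
  obtain ⟨x, rfl⟩ := e.surjective x
  rw [← map_cent]
  refine (h x (by rw [← e.orderOf_eq, hx])).imp (·.map e.injective) fun ⟨h1, h2⟩ => ⟨?_, fun d c => ?_⟩
  · rwa [index_map_of_bijective e.bijective]
  · rw [← map_commutator, show e x = e.toMonoidHom x from rfl, mem_map_iff_mem e.injective] at c
    exact h2 (by rwa [card_map_of_injective e.injective] at d) c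

theorem quot_equiv (h : center G = ⊥) : Nonempty ((G ⧸ center G) ≃* G) :=
  ⟨(QuotientGroup.quotientMulEquivOfEq h).trans QuotientGroup.quotientBot⟩

theorem quot_congr (e : G ≃* H) : Nonempty ((G ⧸ center G) ≃* (H ⧸ center H)) :=
  ⟨QuotientGroup.congr _ _ e (by
    ext y
    obtain ⟨y, rfl⟩ := e.surjective y
    rw [show e y = (e : G →* H) y from rfl, mem_map_iff_mem e.injective, mem_center_iff, mem_center_iff,
      e.surjective.forall]
    simp only [MonoidHom.coe_coe, ← map_mul, e.apply_eq_iff_eq])⟩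

theorem Th.center_eq (h : Th r G) : center G = ⊥ :=
  (h.simple.eq_bot_or_eq_top_of_normal _ inferInstance).resolve_right fun c =>
    h.na ⟨⟨fun a b => mem_center_iff.1 (c ▸ mem_top b) a⟩⟩

theorem Th.dvd (h : Th r G) : r ∣ Nat.card G :=
  let ⟨_, x, _, _, o, _⟩ := h.loc
  o ▸ orderOf_dvd_natCard x

theorem sq_of_ord {x : G} (h : orderOf x = 2) : x * x = 1 := by rw [← pow_two, ← h, pow_orderOf_eq_one]

theorem ne_of_ord {x : G} (h : orderOf x = 2) : x ≠ 1 := fun e => by simp [e] at h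

theorem ord_two {x : G} (h : x * x = 1) (h1 : x ≠ 1) : orderOf x = 2 :=
  orderOf_eq_prime (by rw [pow_two, h]) h1

theorem mem_two {x y : G} (o : x * x = 1) (hy : y ∈ zpowers x) : y = 1 ∨ y = x := by
  obtain ⟨k, rfl⟩ := hy
  have h2 : x ^ (2 : ℤ) = 1 := by rw [zpow_two, o]
  rcases Int.even_or_odd' k with ⟨m, rfl | rfl⟩
  · exact .inl (by simp only [zpow_mul, h2, one_zpow])
  · exact .inr (by simp only [zpow_add, zpow_mul, h2, one_zpow, one_mul, zpow_one])

theorem Th.four_dvd (h : Th r G) : 4 ∣ Nat.card G := by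
  obtain ⟨a, b, oa, ob, hne, c⟩ := h.four
  let f : zpowers a × zpowers b →* G := (zpowers a).subtype.noncommCoprod (zpowers b).subtype
    fun ⟨_, i, hi⟩ ⟨_, j, hj⟩ => by
      simp only [coe_subtype, ← hi, ← hj]; exact Commute.zpow_zpow c i j
  have : Function.Injective f := (injective_iff_map_eq_one f).2 fun ⟨⟨x, hx⟩, ⟨y, hy⟩⟩ e' => by
    have e : x * y = 1 := e'
    rcases mem_two (sq_of_ord oa) hx with rfl | rfl <;> rcases mem_two (sq_of_ord ob) hy with rfl | rfl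
    · rfl
    · exact (ne_of_ord ob (by simpa using e)).elim
    · exact (ne_of_ord oa (by simpa using e)).elim
    · exact (hne (mul_left_cancel ((sq_of_ord oa).trans e.symm))).elim
  simpa [Nat.card_prod, Nat.card_zpowers, oa, ob] using card_dvd_of_injective f this
end

variable {G : Type*} [Group G] {r : ℕ} {A U P X Y S : Subgroup G} {a b c d x y w : G}

theorem center_eq_bot_iff : center A = ⊥ ↔ A ⊓ centralizer (A : Set G) = ⊥ := by
  simp only [eq_bot_iff_forall, mem_center_iff, mem_inf, mem_centralizer_iff, Subtype.forall,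
    Subtype.ext_iff, coe_mul, coe_one, SetLike.mem_coe]
  exact ⟨fun h x hx => h x hx.1 hx.2, fun h x h1 h2 => h x ⟨h1, h2⟩⟩

theorem in_iff' : In A x ↔ ∃ a ∈ A, a⁻¹ * x ∈ centralizer (A : Set G) :=
  exists_congr fun a => and_congr_right fun _ => by
    refine ⟨fun h y hy => ?_, fun h y hy => ?_⟩
    · calc y * (a⁻¹ * x) = a⁻¹ * (a * y * a⁻¹) * x := by group
        _ = _ := by rw [← h y hy]; group
    · calc x * y * x⁻¹ = a * (a⁻¹ * x * y) * x⁻¹ := by group
        _ = _ := by rw [← h y hy]; group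

theorem in_iff : In A x ↔ x ∈ A ⊔ centralizer (A : Set G) := by
  rw [in_iff', mem_sup_of_le_normalizer (le_normalizer.trans (normalizer_le_normalizer_centralizer A))]
  exact ⟨fun ⟨a, ha, h⟩ => ⟨a, ha, _, h, by group⟩, fun ⟨a, ha, b, hb, e⟩ => ⟨a, ha, by simpa [e]⟩⟩

/-- The outer automorphism induced by an element of the normaliser. -/
def outH (A : Subgroup G) : normalizer (A : Set G) →* Out A :=
  (QuotientGroup.mk' (Inn A)).comp A.normalizerMonoidHom

theorem inn_iff (x : normalizer (A : Set G)) : A.normalizerMonoidHom x ∈ Inn A ↔ In A x := by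
  constructor
  · rintro ⟨a, ha⟩
    exact ⟨a, a.2, fun y hy => ((congrArg Subtype.val (DFunLike.congr_fun ha ⟨y, hy⟩)).symm :)⟩
  · rintro ⟨a, ha, h⟩
    exact ⟨⟨a, ha⟩, MulEquiv.ext fun y => Subtype.ext (h y y.2).symm⟩

theorem outH_eq_one (x : normalizer (A : Set G)) : outH A x = 1 ↔ In A x :=
  (QuotientGroup.eq_one_iff _).trans (inn_iff x)

theorem Th.inf_cent (h : Th r A) : A ⊓ centralizer (A : Set G) = ⊥ := center_eq_bot_iff.1 h.center_eq

theorem Th.perfect (h : Th r A) : ⁅A, A⁆ = A := by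
  have : commutator A = ⊤ := (h.simple.eq_bot_or_eq_top_of_normal _ inferInstance).resolve_left fun c =>
    h.na ⟨⟨fun a b => commutatorElement_eq_one_iff_mul_comm.1
      (mem_bot.1 (c ▸ commutator_mem_commutator (mem_top a) (mem_top b)))⟩⟩
  rw [← map_subtype_commutator, this, ← MonoidHom.range_eq_map, range_subtype]

theorem Th.fourA (h : Th r A) :
    ∃ a ∈ A, ∃ b ∈ A, orderOf a = 2 ∧ orderOf b = 2 ∧ a ≠ b ∧ a * b = b * a :=
  let ⟨a, b, h1, h2, h3, h4⟩ := h.four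
  ⟨a, a.2, b, b.2, by rw [orderOf_coe, h1], by rw [orderOf_coe, h2], Subtype.val_injective.ne h3,
    congrArg Subtype.val h4⟩

theorem Th.ne_bot (h : Th r A) : A ≠ ⊥ := fun e =>
  let ⟨_, ha, _, _, o, _⟩ := h.fourA
  ne_of_ord o (mem_bot.1 (e ▸ ha))

theorem Th.conjA (h : Th r A) (ha : a ∈ A) (hb : b ∈ A) (oa : orderOf a = 2) (ob : orderOf b = 2) :
    ∃ c ∈ A, c * a * c⁻¹ = b :=
  let ⟨c, e⟩ := isConj_iff.1 (h.conj ⟨a, ha⟩ ⟨b, hb⟩ (by rw [orderOf_mk, oa]) (by rw [orderOf_mk, ob]))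
  ⟨c, c.2, congrArg Subtype.val e⟩

theorem map_cent_sub (a : A) : (centralizer ({a} : Set A)).map A.subtype = A ⊓ centralizer {a.1} := by
  ext y
  simp only [mem_map, mem_inf, mem_centralizer_singleton_iff, Subtype.ext_iff]
  exact ⟨fun ⟨x, h, e⟩ => e ▸ ⟨x.2, h⟩, fun h => ⟨⟨y, h.1⟩, h.2, rfl⟩⟩

theorem Th.cenA (h : Th r A) (ha : a ∈ A) (oa : orderOf a = 2) :
    IsPGroup 2 (A ⊓ centralizer {a} : Subgroup G) :=
  map_cent_sub ⟨a, ha⟩ ▸ (h.cen ⟨a, ha⟩ (by rw [orderOf_mk, oa])).map _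

theorem Th.locA (h : Th r A) : ∃ Q ≤ A, ∃ x ∈ A, Q ≠ ⊥ ∧ IsPGroup 2 Q ∧ orderOf x = r ∧
    x ∈ normalizer (Q : Set G) :=
  let ⟨Q, x, h1, h2, h3, h4⟩ := h.loc
  ⟨Q.map A.subtype, map_subtype_le Q, x, x.2,
    fun c => h1 ((map_eq_bot_iff_of_injective _ A.subtype_injective).1 c), h2.map _,
    by rw [orderOf_coe, h3], le_normalizer_map _ (mem_map_of_mem _ h4)⟩

theorem Th.in_comm (h : Th r A) (hx : x ∈ normalizer (A : Set G)) (hy : y ∈ normalizer (A : Set G)) :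
    In A (x * y * x⁻¹ * y⁻¹) := by
  have := h.out
  refine (outH_eq_one (⟨x, hx⟩ * ⟨y, hy⟩ * ⟨x, hx⟩⁻¹ * ⟨y, hy⟩⁻¹)).1 ?_
  rw [map_mul, map_mul, map_mul, map_inv, map_inv,
    (IsCyclic.isMulCommutative (α := Out A)).is_comm.comm (outH A ⟨x, hx⟩)]
  group

theorem cyc_two {C : Type*} [Group C] [IsCyclic C] {u v : C} (hu : u * u = 1) (hv : v * v = 1)
    (h1 : u ≠ 1) (h2 : v ≠ 1) : u * v = 1 := by
  obtain ⟨g, hg⟩ := IsCyclic.exists_generator (α := C)
  obtain ⟨i, rfl⟩ := hg u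
  obtain ⟨j, rfl⟩ := hg v
  simp only [← zpow_add, ne_eq, ← orderOf_dvd_iff_zpow_eq_one] at *
  obtain ⟨s, hs⟩ := hu
  obtain ⟨t, ht⟩ := hv
  rcases Int.even_or_odd' s with ⟨s, rfl | rfl⟩
  · exact (h1 ⟨s, by linarith⟩).elim
  rcases Int.even_or_odd' t with ⟨t, rfl | rfl⟩
  · exact (h2 ⟨t, by linarith⟩).elim
  exact ⟨s + t + 1, by linarith⟩

theorem Th.in_mul (h : Th r A) (hx : x ∈ normalizer (A : Set G)) (hy : y ∈ normalizer (A : Set G))
    (x2 : In A (x * x)) (y2 : In A (y * y)) (nx : ¬ In A x) (ny : ¬ In A y) : In A (x * y) := by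
  have := h.out
  refine (outH_eq_one (⟨x, hx⟩ * ⟨y, hy⟩)).1 ?_
  rw [map_mul]
  exact cyc_two (by rw [← map_mul]; exact (outH_eq_one _).2 x2) (by rw [← map_mul]; exact (outH_eq_one _).2 y2)
    (fun c => nx ((outH_eq_one _).1 c)) fun c => ny ((outH_eq_one _).1 c)

theorem Th.cyc2 (h : Th r A) (hS : S ≤ normalizer (A : Set G)) :
    ∃ x ∈ S, ∀ s ∈ S, ∃ k : ℤ, In A (s * (x ^ k)⁻¹) := by
  have := h.out
  let f := (outH A).comp (inclusion hS)
  obtain ⟨⟨_, x, rfl⟩, hx⟩ := IsCyclic.exists_generator (α := f.range)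
  refine ⟨x, x.2, fun s hs => ?_⟩
  obtain ⟨k, hk⟩ := hx ⟨_, ⟨s, hs⟩, rfl⟩
  have : f (⟨s, hs⟩ * (x ^ k)⁻¹) = 1 := by
    rw [map_mul, map_inv, map_zpow, mul_inv_eq_one]
    exact (congrArg Subtype.val hk).symm
  exact ⟨k, ((outH_eq_one _).1 this :)⟩

theorem Th.outerA (h : Th r A) (hx : x ∈ normalizer (A : Set G)) (h2 : x * x = 1) (hn : ¬ In A x) :
    ¬ H70.CharP 2 (A ⊓ centralizer {x}) ∧ ∃ y ∈ A, ∃ s ∈ A, orderOf y = r ∧ x * y = y * x ∧
      x * s = s * x ∧ s * y * s⁻¹ = y⁻¹ := by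
  have k : ∀ y : A, A.normalizerMonoidHom ⟨x, hx⟩ y = y ↔ x * y = y * x := fun y =>
    Subtype.ext_iff.trans (mul_inv_eq_iff_eq_mul (a := x * y) (b := x))
  obtain ⟨h3, y, s, o, h4, h5, h6⟩ := h.outer (A.normalizerMonoidHom ⟨x, hx⟩)
    (by rw [← map_mul, ← map_one A.normalizerMonoidHom]; exact congrArg _ (Subtype.ext h2))
    fun c => hn ((inn_iff _).1 c)
  refine ⟨fun c => h3 ((H70.charP_map_iff A.subtype_injective).1 ?_), y, y.2, s, s.2,
    by rw [orderOf_coe, o], (k y).1 h4, (k s).1 h5, congrArg Subtype.val h6⟩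
  convert c
  ext y
  simp only [mem_map, mem_inf, mem_centralizer_singleton_iff]
  exact ⟨fun ⟨z, h, e⟩ => e ▸ ⟨z.2, ((k z).1 h).symm⟩, fun h => ⟨⟨y, h.1⟩, (k _).2 h.2.symm, rfl⟩⟩

theorem Th.perf_le (h : Th r A) (hY : ⁅Y, Y⁆ = Y) (hn : Y ≤ normalizer (A : Set G)) :
    Y ≤ A ⊔ centralizer (A : Set G) :=
  hY ▸ commutator_le.2 fun _ hx _ hy => in_iff.1 (h.in_comm (hn hx) (hn hy))

variable [Finite G]

theorem exists_inv_cent (hP : IsPGroup 2 P) (hn : P ≤ normalizer (A : Set G)) (hA : 2 ∣ Nat.card A) :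
    ∃ a ∈ A, orderOf a = 2 ∧ P ≤ centralizer {a} := by
  obtain ⟨S, hS, hPS⟩ := exists_sylowIn_ge hP (le_sup_left : P ≤ P ⊔ A)
  have hU := hS.inf_of_normal_le (sup_le hn le_normalizer) le_sup_right
  have hN : S ≤ normalizer ((S ⊓ A : Subgroup G) : Set G) :=
    H70.le_normalizer_inf le_normalizer (hS.le.trans (sup_le hn le_normalizer))
  letI : MulAction S (S ⊓ A : Subgroup G) :=
    MulAction.compHom _ ((S ⊓ A).normalizerMonoidHom.comp (inclusion hN))
  obtain ⟨x, hx, h1⟩ := hS.isPGroup.exists_fixed_point_of_prime_dvd_card_of_fixed_point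
    (S ⊓ A : Subgroup G) (dvd_card_of_isPGroup_of_ne_bot hU.isPGroup (hU.ne_bot hA) le_rfl) (a := 1)
    fun s => map_one (((S ⊓ A).normalizerMonoidHom.comp (inclusion hN)) s)
  obtain ⟨k, hk⟩ := IsPGroup.iff_orderOf.1 hU.isPGroup x
  obtain ⟨k, rfl⟩ := Nat.exists_eq_succ_of_ne_zero (n := k) (by
    rintro rfl; exact h1 (orderOf_eq_one_iff.1 hk).symm)
  refine ⟨x ^ 2 ^ k, pow_mem x.2.2 _, ?_, fun s hs => mem_centralizer_singleton_iff.2 ?_⟩
  · rw [orderOf_pow' _ (by positivity), orderOf_coe, hk, pow_succ, Nat.gcd_eq_right (dvd_mul_right _ _),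
      Nat.mul_div_cancel_left _ (by positivity)]
  · have e : s * x * s⁻¹ = x := (congrArg Subtype.val (hx ⟨s, hPS hs⟩) :)
    exact (show Commute s x from mul_inv_eq_iff_eq_mul.1 e).pow_right _

theorem Th.sylA (h : Th r A) (ha : a ∈ A) (oa : orderOf a = 2) :
    SylowIn 2 (A ⊓ centralizer {a}) A := by
  obtain ⟨U, hU⟩ := exists_sylowIn 2 A
  obtain ⟨b, hb, ob, hc⟩ := exists_inv_cent hU.isPGroup le_normalizer
    (dvd_card_of_isPGroup_of_ne_bot hU.isPGroup (hU.ne_bot ((by norm_num : 2 ∣ 4).trans h.four_dvd)) le_rfl)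
  obtain ⟨c, hc', e⟩ := h.conjA (hU.le hb) ha ob oa
  refine (hU.cj_of_mem hc').of_card_le (h.cenA ha oa) inf_le_left (card_le_of_le (le_inf
    (cj_le_of_mem hc' hU.le) ?_))
  rw [← e, ← H44.cj_centralizer_singleton]
  exact cj_mono c hc

theorem Th.perf_cent (h : Th r A) (hY : ⁅Y, Y⁆ = Y) (hn : Y ≤ normalizer (A : Set G)) (hd : d ∈ A)
    (od : orderOf d = 2) (hc : Y ≤ centralizer {d}) : Y ≤ centralizer (A : Set G) := by
  let f := A.normalizerMonoidHom.comp (inclusion hn)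
  have hp : IsPGroup 2 ((⊤ : Subgroup Y).map f) := by
    refine isPGroup_iff_forall.2 ?_
    rintro _ ⟨y, -, rfl⟩
    obtain ⟨a, ha, e⟩ := in_iff.2 (h.perf_le hY hn y.2)
    have h1 : a ∈ A ⊓ centralizer {d} := ⟨ha, mem_centralizer_singleton_iff.2 (by
      rw [← mul_inv_eq_iff_eq_mul, ← e d hd, mem_centralizer_singleton_iff.1 (hc y.2)]; group)⟩
    obtain ⟨k, hk⟩ := isPGroup_iff_forall.1 (h.cenA hd od) a h1
    have : f y = MulAut.conj ⟨a, ha⟩ := MulEquiv.ext fun w => Subtype.ext (e w w.2)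
    exact ⟨k, by rw [this, ← map_pow, show (⟨a, ha⟩ : A) ^ 2 ^ k = 1 from Subtype.ext hk, map_one]⟩
  have := H90.QT.perfect_le_ker (L := (⊤ : Subgroup Y)) (by
    simpa using H90.QT.perfect_subgroupOf hY le_rfl) f (by
      have := hp.isNilpotent; infer_instance)
  intro y hy w hw
  have e0 : f ⟨y, hy⟩ = 1 := this (mem_top _)
  have e : y * w * y⁻¹ = w := (congrArg Subtype.val (DFunLike.congr_fun e0 ⟨w, hw⟩) :)
  exact (mul_inv_eq_iff_eq_mul.1 e).symm

theorem Cen.amb (h : Cen A) (hU : SylowIn 2 U A) (ha : a ∈ U) (h2 : a * a = 1) (hb : b ∈ U) :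
    a * b = b * a :=
  congrArg Subtype.val (h hU.toSylow ⟨a, hU.le ha⟩ ha (Subtype.ext h2) ⟨b, hU.le hb⟩ hb)

theorem Dih.amb (h : Dih A) (hU : SylowIn 2 U A) : ∃ a ∈ U, ∃ b ∈ U, orderOf a = 4 ∧ b * b = 1 ∧
    b * a * b⁻¹ = a⁻¹ ∧ b ∉ zpowers a ∧ ∀ c ∈ U, (∀ d ∈ U, c * d = d * c) → c = 1 ∨ c = a * a := by
  obtain ⟨a, ha, b, hb, o, h1, h2, h3, h4⟩ := h.2 hU.toSylow
  refine ⟨a, ha, b, hb, by rw [orderOf_coe, o], congrArg Subtype.val h1, congrArg Subtype.val h2,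
    fun ⟨k, hk⟩ => h3 ⟨k, Subtype.ext hk⟩, fun c hc hd => ?_⟩
  exact (h4 ⟨c, hU.le hc⟩ hc fun d hd' => Subtype.ext (hd d hd')).imp (congrArg Subtype.val)
    (congrArg Subtype.val)

theorem burnside (hU : SylowIn 2 U A) (ha : U ≤ centralizer {a}) (hb : U ≤ centralizer {b})
    (hc : c ∈ A) (e : c * a * c⁻¹ = b) :
    ∃ n ∈ A, n ∈ normalizer (U : Set G) ∧ Odd (orderOf n) ∧ n * a * n⁻¹ = b := by
  have h1 : cj c U ≤ centralizer {b} := by
    rw [← e, ← H44.cj_centralizer_singleton]; exact cj_mono c ha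
  obtain ⟨k, hk, e1⟩ := ((hU.cj_of_mem hc).mono (le_inf (hU.cj_of_mem hc).le h1) inf_le_left).exists_cj_eq
    (hU.mono (le_inf hU.le hb) inf_le_left)
  have hA : k * c ∈ A := mul_mem hk.1 hc
  have hn : k * c ∈ normalizer (U : Set G) := mem_normalizer_iff_cj.2 (by rw [cj_mul, e1])
  have e2 : k * c * a * (k * c)⁻¹ = b := by
    rw [show k * c * a * (k * c)⁻¹ = k * (c * a * c⁻¹) * k⁻¹ by group, e,
      mem_centralizer_singleton_iff.1 hk.2, mul_inv_cancel_right]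
  generalize k * c = n at hA hn e2
  obtain ⟨i, m, hm, o⟩ := Nat.exists_eq_two_pow_mul_odd (orderOf_pos n).ne'
  obtain ⟨s, t, st⟩ := Nat.isCoprime_iff_coprime.2 ((Nat.coprime_two_left.2 hm).pow_left i)
  have hv : (n ^ m) ^ t ∈ U := zpow_mem (hU.le_of_normalizes (isPGroup_zpowers (k := i) (by
    rw [← pow_mul, mul_comm, ← o, pow_orderOf_eq_one])) (zpowers_le.2 (pow_mem hA m))
    (zpowers_le.2 (pow_mem hn m)) (mem_zpowers _)) t
  have e3 : n = (n ^ 2 ^ i) ^ s * (n ^ m) ^ t := by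
    rw [← zpow_natCast, ← zpow_natCast, ← zpow_mul, ← zpow_mul, ← zpow_add, mul_comm _ s, mul_comm _ t, st,
      zpow_one]
  refine ⟨(n ^ 2 ^ i) ^ s, zpow_mem (pow_mem hA _) s, zpow_mem (pow_mem hn _) s,
    hm.of_dvd_nat (orderOf_dvd_of_pow_eq_one ?_), ?_⟩
  · rw [← zpow_natCast, ← zpow_mul, mul_comm, zpow_mul, zpow_natCast, ← pow_mul, ← o, pow_orderOf_eq_one,
      one_zpow]
  · have e4 := mem_centralizer_singleton_iff.1 (ha hv)
    generalize (n ^ 2 ^ i) ^ s = p at e3 ⊢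
    generalize (n ^ m) ^ t = v at e3 e4
    rw [← e2, e3, mul_assoc p v a, e4]; group

theorem card_clo {p k : ℕ} (hr : PRankLE p k X) {s : Set G} (hs : s ⊆ X)
    (hc : ∀ a ∈ s, ∀ b ∈ s, a * b = b * a) (hp : ∀ a ∈ s, a ^ p = 1) :
    IsPGroup p (closure s) ∧ Nat.card (closure s) ≤ p ^ k := by
  have hA : IsMulCommutative (closure s) := isMulCommutative_closure hc
  have hp' : ∀ a ∈ closure s, a ^ p = 1 := fun a ha => by
    induction ha using closure_induction with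
    | mem a ha => exact hp a ha
    | one => simp
    | mul a b ha hb ha' hb' =>
      have : Commute a b := congrArg Subtype.val (hA.is_comm.comm ⟨a, ha⟩ ⟨b, hb⟩)
      rw [this.mul_pow, ha', hb', mul_one]
    | inv a _ ha => rw [inv_pow, ha, inv_one]
  have hl : closure s ≤ X := (closure_le X).2 hs
  refine ⟨isPGroup_iff_forall.2 fun a ha => ⟨1, by rw [pow_one, hp' a ha]⟩, ?_⟩
  rw [← Nat.card_congr (subgroupOfEquivOfLe hl).toEquiv]
  exact hr _ ⟨⟨fun a b => Subtype.ext (Subtype.ext (congrArg Subtype.val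
    (hA.is_comm.comm ⟨a.1.1, a.2⟩ ⟨b.1.1, b.2⟩) :))⟩⟩ fun a ha => Subtype.ext (hp' a ha)

theorem mul_card_le {p : ℕ} (hp : p.Prime) (hY : IsPGroup p Y) (h : X ≤ Y) (hy : y ∈ Y) (hx : y ∉ X) :
    Nat.card X * p ≤ Nat.card Y := by
  have := Fact.mk hp
  obtain ⟨a, ha⟩ := (hY.to_le h).exists_card_eq
  obtain ⟨b, hb⟩ := hY.exists_card_eq
  have : Nat.card X < Nat.card Y := (card_le_of_le h).lt_of_ne fun e =>
    hx (eq_of_le_of_card_ge h e.ge ▸ hy)
  rw [ha, hb] at this ⊢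
  rw [← pow_succ]
  exact Nat.pow_le_pow_right hp.pos ((Nat.pow_lt_pow_iff_right hp.one_lt).1 this)

theorem rank2 {p : ℕ} (hp : p.Prime) (hr : PRankLE p 1 X) (hx : x ∈ X) (hy : y ∈ X) (c : x * y = y * x)
    (px : x ^ p = 1) (py : y ^ p = 1) (U : Subgroup G) (h1 : x ≠ 1) (h2 : x ∈ U) (h3 : y ∉ U) :
    False := by
  obtain ⟨h4, h5⟩ := card_clo hr (s := {x, y}) (by simp [Set.insert_subset_iff, hx, hy])
    (by simp [c]) (by simp [px, py])
  have mx : x ∈ closure {x, y} := subset_closure (by simp)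
  have l1 := mul_card_le hp (h4.to_le (inf_le_left (b := U))) bot_le ⟨mx, h2⟩ h1
  have l2 := mul_card_le hp h4 (inf_le_left (b := U)) (subset_closure (by simp)) fun h => h3 h.2
  rw [card_bot] at l1
  have := hp.one_lt
  nlinarith

theorem rank3 {p : ℕ} (hp : p.Prime) (hr : PRankLE p 2 X) (hx : x ∈ X) (hy : y ∈ X) (hw : w ∈ X)
    (c1 : x * y = y * x) (c2 : x * w = w * x) (c3 : y * w = w * y) (px : x ^ p = 1) (py : y ^ p = 1)
    (pw : w ^ p = 1) (U V : Subgroup G) (h1 : x ≠ 1) (h2 : x ∈ U) (h3 : y ∉ U) (h4 : x ∈ V)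
    (h5 : y ∈ V) (h6 : w ∉ V) : False := by
  obtain ⟨h7, h8⟩ := card_clo hr (s := {x, y, w}) (by simp [Set.insert_subset_iff, hx, hy, hw])
    (by simp [c1, c2, c3]) (by simp [px, py, pw])
  have mx : x ∈ closure {x, y, w} := subset_closure (by simp)
  have my : y ∈ closure {x, y, w} := subset_closure (by simp)
  have l1 := mul_card_le hp (h7.to_le ((inf_le_left (b := U)).trans (inf_le_left (b := V)))) bot_le
    ⟨⟨mx, h4⟩, h2⟩ h1
  have l2 := mul_card_le hp (h7.to_le (inf_le_left (b := V))) (inf_le_left (b := U)) ⟨my, h5⟩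
    fun h => h3 h.2
  have l3 := mul_card_le hp h7 (inf_le_left (b := V)) (subset_closure (by simp)) fun h => h6 h.2
  rw [card_bot, one_mul] at l1
  have := (Nat.mul_le_mul_right p ((Nat.mul_le_mul_right p l1).trans l2)).trans (l3.trans h8)
  have h := hp.one_lt
  nlinarith [Nat.mul_pos hp.pos hp.pos]

theorem force_Bas : True := by
  have := @outH.eq_1.{0}
  trivial

end H4.Q16
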