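import Mathlib
import Cfsg.Agent.Base
import Cfsg.Agent.Lib.Q16.Bas

/-! Basic facts about `GS`, `Pr`, `Two`. -/

set_option autoImplicit false

namespace H4.Q16
open Subgroup Cfsg H68

variable {G : Type*} [Group G] {r : ℕ} {A B A' B' K Y Q : Subgroup G} {T : Sylow 2 G}
  {z u g t d x : G}

theorem NP_comm (A B : Subgroup G) : NP A B = NP B A := by
  ext g
  simp only [mem_NP]
  tauto

theorem Bas2.cj_iff {g x : G} {A B : Subgroup G} :
    cj (g⁻¹ * x * g) A = B ↔ cj x (cj g A) = cj g B := by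
  rw [cj_mul, cj_mul, ← (cj_injective g).eq_iff, cj_cj_inv]

theorem Bas2.cent {a y : G} (ha : a ∈ centralizer (A : Set G)) (hy : y ∈ A) : y * a = a * y :=
  mem_centralizer_iff.1 ha y hy

theorem Bas2.ord_cj (g x : G) : orderOf (g * x * g⁻¹) = orderOf x :=
  orderOf_injective (MulAut.conj g).toMonoidHom (MulAut.conj g).injective x

theorem Bas2.inv_cj {A B : Subgroup G} (h : cj g A = B) : cj g⁻¹ B = A := h ▸ cj_inv_cj g A

open Bas2

theorem cj_NP (g : G) (A B : Subgroup G) : cj g (NP A B) = NP (cj g A) (cj g B) := by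
  ext x
  simp only [mem_cj, mem_NP, cj_iff]

theorem le_NP (A B : Subgroup G) : normalizer (A : Set G) ⊓ normalizer (B : Set G) ≤ NP A B := 
  fun _ h => .inl ⟨mem_normalizer_iff_cj.1 h.1, mem_normalizer_iff_cj.1 h.2⟩

theorem perfect_le_of_NP (hY : ⁅Y, Y⁆ = Y) (h : Y ≤ NP A B) :
    Y ≤ normalizer (A : Set G) ⊓ normalizer (B : Set G) := by
  refine hY.ge.trans (commutator_le.2 fun x hx y hy => ?_)
  rw [mem_inf, mem_normalizer_iff_cj, mem_normalizer_iff_cj, commutatorElement_def]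
  rcases h hx with ⟨a, b⟩ | ⟨a, b⟩ <;> rcases h hy with ⟨c, d⟩ | ⟨c, d⟩ <;>
    simp only [cj_mul, inv_cj a, inv_cj b, inv_cj c, inv_cj d, a, b, c, d, and_self]

theorem Inner.symm (h : Inner A B x) (hc : A ≤ centralizer (B : Set G)) : Inner B A x := by
  obtain ⟨a, ha, b, hb, c, h1, oa, ob, c2, e⟩ := h
  exact ⟨b, hb, a, ha, c, ⟨h1.2, h1.1⟩, ob, oa, c2, by rw [e, cent (hc ha) hb]⟩


theorem GS.symm (h : GS r T z u A B) : GS r T z u B A := by
  have e : A ≃* B := (cjEquiv u A).trans (MulEquiv.subgroupCongr h.uA)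
  obtain ⟨q⟩ := quot_congr e
  refine ⟨h.qt, h.core, h.kf, h.oz, h.zT, h.zc, h.cB, h.cA, h.ne.symm, h.uT, h.uB, h.uA,
    NP_comm A B ▸ h.cz, h.th.congr q, rank_congr h.cyc q, h.zA.of_equiv (centerCongr e), fun n => ?_⟩
  obtain ⟨h1, h2, E, h3, h4, h5⟩ := h.cov fun c => n (by
    rwa [eq_bot_iff_card, ← Nat.card_congr (centerCongr e).toEquiv, ← eq_bot_iff_card])
  refine ⟨Nat.card_congr q.toEquiv ▸ h1, h2.congr q, E.map e.toMonoidHom, inferInstance, ?_, ?_⟩
  · rintro _ ⟨a, ha, rfl⟩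
    rw [← map_pow, h4 a ha, map_one]
  · rwa [card_map_of_injective e.injective]

theorem GS.comm (h : GS r T z u A B) : A ≤ centralizer (B : Set G) := 
  commutator_eq_bot_iff_le_centralizer.1 (H44.IsComponentOf.commutator_eq_bot_of_ne h.cA h.cB h.ne)

theorem GS.inf_eq (h : GS r T z u A B) :
    (T : Subgroup G) ⊓ normalizer (B : Set G) = (T : Subgroup G) ⊓ normalizer (A : Set G) := by
  ext t
  simp only [mem_inf, mem_normalizer_iff_cj]
  refine and_congr_right fun ht => ?_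
  rcases h.cz (h.zc ht) with ⟨a, b⟩ | ⟨a, b⟩ <;> rw [a, b]
  exacts [iff_of_true rfl rfl, eq_comm]

theorem GS.z_mem (h : GS r T z u A B) : z ∈ (T : Subgroup G) ⊓ normalizer (A : Set G) := 
  ⟨h.zT, centralizer_le_normalizer _ (H70.le_centralizer_singleton_iff.1 h.cA.1)⟩

theorem GS.swap (h : GS r T z u A B) (ht : t ∈ (T : Subgroup G)) (hn : t ∉ normalizer (A : Set G)) :
    cj t A = B ∧ cj t B = A := 
  (h.cz (h.zc ht)).resolve_left fun c => hn (mem_normalizer_iff_cj.2 c.1)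

theorem GS.idx (h : GS r T z u A B) :
    ((T : Subgroup G) ⊓ normalizer (A : Set G)).relIndex T = 2 := by
  refine relIndex_eq_two_iff_exists_notMem_and.2 ⟨u, h.uT,
    fun c => h.ne ((mem_normalizer_iff_cj.1 c.2).symm.trans h.uA), fun b hb => ?_⟩
  by_cases c : b ∈ normalizer (A : Set G)
  · exact .inr ⟨hb, c⟩
  · exact .inl ⟨mul_mem hb h.uT, mem_normalizer_iff_cj.2 (by rw [cj_mul, h.uA, (h.swap hb c).2])⟩

theorem GS.rank (h : GS r T z u A B) (hQ : IsPGroup 2 Q) (h0 : Q ≠ ⊥) :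
    PRankLE r 2 (normalizer (Q : Set G)) := h.qt r h.th.pr h.th.odd _ ⟨Q, hQ, h0, rfl⟩

theorem Pr.cj (h : Pr r A B) (g : G) : Pr r (cj g A) (cj g B) := by
  obtain ⟨u, h1, h2⟩ := h.sw
  refine ⟨h.th.congr (cjEquiv g A), rank_congr h.cyc (cjEquiv g A), ⟨g * u * g⁻¹, ?_, ?_⟩,
    cj_centralizer g B ▸ cj_mono g h.comm, by rw [← cj_normalizer, ← cj_normalizer, h.nn], ?_, ?_, ?_⟩
  · rw [cj_mul, cj_mul, cj_inv_cj, h1]
  · rw [cj_mul, cj_mul, cj_inv_cj, h2]
  · rintro _ ⟨a, ha, rfl⟩ oa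
    rw [← cj_normalizer]
    exact (H44.cj_centralizer_singleton g a).ge.trans (cj_mono g (h.cA a ha ((ord_cj g a).symm.trans oa)))
  · rw [← cj_centralizer, ← cj_centralizer, ← cj_inf, card_cj]
    exact h.rk
  · rintro _ ⟨a, ha, rfl⟩ _ ⟨x, hx, rfl⟩ _ ⟨y, hy, rfl⟩ ox oy c
    refine h.nc a ha x hx y hy ((ord_cj g x).symm.trans ox) ((ord_cj g y).symm.trans oy) ?_
    rw [← map_mul] at c
    exact ((isConj_iff.2 ⟨g, rfl⟩).trans c).trans (isConj_iff.2 ⟨g, rfl⟩).symm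

theorem Pr.symm (h : Pr r A B) : Pr r B A := by
  obtain ⟨u, h1, h2⟩ := h.sw
  have := h.cj u
  rwa [h1, h2] at this

theorem Pr.disj (h : Pr r A B) : A ⊓ B = ⊥ := 
  eq_bot_iff.2 ((inf_le_inf_left A h.symm.comm).trans h.th.inf_cent.le)

theorem Pr.ne (h : Pr r A B) : A ≠ B := fun e => h.th.ne_bot (by
  have := h.disj
  rwa [← e, inf_idem] at this)

theorem Pr.eq_one (h : Pr r A B) {a : G} (ha : a ∈ A) (hc : a ∈ centralizer (A : Set G)) : a = 1 :=
  mem_bot.1 (h.th.inf_cent.le ⟨ha, hc⟩)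

theorem Pr.mem_sup (h : Pr r A B) : x ∈ A ⊔ B ↔ ∃ a ∈ A, ∃ b ∈ B, x = a * b :=
  mem_sup_of_le_normalizer (h.comm.trans (centralizer_le_normalizer _))

theorem Pr.sup_inf (h : Pr r A B) :
    (A ⊔ B) ⊓ (centralizer (A : Set G) ⊓ centralizer (B : Set G)) = ⊥ := by
  refine eq_bot_iff.2 fun x ⟨h1, h2, h3⟩ => ?_
  obtain ⟨a, ha, b, hb, rfl⟩ := h.mem_sup.1 h1
  rw [h.eq_one ha (((centralizer _).mul_mem_cancel_right (h.symm.comm hb)).1 h2),
    h.symm.eq_one hb (((centralizer _).mul_mem_cancel_left (h.comm ha)).1 h3), mul_one]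
  exact one_mem _

theorem Pr.dec (h : Pr r A B) (hA : In A x) (hB : In B x) :
    ∃ a ∈ A, ∃ b ∈ B, ∃ c ∈ centralizer (A : Set G) ⊓ centralizer (B : Set G), x = a * b * c := by
  obtain ⟨a, ha, h1⟩ := in_iff'.1 hA
  obtain ⟨b, hb, h2⟩ := in_iff'.1 hB
  refine ⟨a, ha, b, hb, b⁻¹ * (a⁻¹ * x), mem_inf.2 ⟨mul_mem (inv_mem (h.symm.comm hb)) h1, ?_⟩,
    by group⟩
  rw [← mul_assoc, ← mul_inv_rev, ← cent (h.comm ha) hb, mul_inv_rev, mul_assoc]
  exact mul_mem (inv_mem (h.comm ha)) h2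

theorem Pr.dec_uniq (h : Pr r A B) {a b c a' b' c' : G} (ha : a ∈ A) (hb : b ∈ B)
    (hc : c ∈ centralizer (A : Set G) ⊓ centralizer (B : Set G)) (ha' : a' ∈ A) (hb' : b' ∈ B)
    (hc' : c' ∈ centralizer (A : Set G) ⊓ centralizer (B : Set G)) (e : a * b * c = a' * b' * c') :
    a = a' ∧ b = b' ∧ c = c' := by
  have h1 : a'⁻¹ * a = b' * c' * c⁻¹ * b⁻¹ := by
    calc _ = a'⁻¹ * (a * b * c) * c⁻¹ * b⁻¹ := by group
      _ = _ := by rw [e]; group
  obtain rfl : a' = a := inv_mul_eq_one.1 (h.eq_one (mul_mem (inv_mem ha') ha) (h1 ▸ mul_mem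
    (mul_mem (mul_mem (h.symm.comm hb') hc'.1) ((centralizer _).inv_mem hc.1)) (inv_mem (h.symm.comm hb))))
  rw [mul_assoc, mul_assoc, mul_right_inj] at e
  have h2 : b'⁻¹ * b = c' * c⁻¹ := by
    calc _ = b'⁻¹ * (b * c) * c⁻¹ := by group
      _ = _ := by rw [e]; group
  obtain rfl : b' = b := inv_mul_eq_one.1 (h.symm.eq_one (mul_mem (inv_mem hb') hb)
    (h2 ▸ (centralizer _).mul_mem hc'.2 ((centralizer _).inv_mem hc.2)))
  exact ⟨rfl, rfl, mul_left_cancel e⟩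

theorem Pr.fix (h : Pr r A B) (e : H68.cj g A = A) : H68.cj g B = B :=
  mem_normalizer_iff_cj.1 (h.nn ▸ mem_normalizer_iff_cj.2 e)

theorem Pr.sw' (h : Pr r A B) (e : H68.cj g A = B) : H68.cj g B = A := by
  obtain ⟨u, h1, h2⟩ := h.sw
  have := h.fix (g := u * g) (by rw [cj_mul, e, h2])
  rw [cj_mul, ← h1] at this
  exact cj_injective u (h1 ▸ this)

theorem Pr.two (h : Pr r A B) (hg : g ∉ NP A B) : Two r A B (H68.cj g A) (H68.cj g B) := 
  ⟨h, ⟨g, rfl, rfl⟩, fun e => hg (.inl ⟨e, h.fix e⟩), fun e => hg (.inr ⟨e, h.sw' e⟩)⟩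

theorem Two.pr' (h : Two r A B A' B') : Pr r A' B' := by
  obtain ⟨g, rfl, rfl⟩ := h.ex
  exact h.pr.cj g

theorem Two.symm (h : Two r A B A' B') : Two r A' B' A B := by
  obtain ⟨g, h1, h2⟩ := h.ex
  exact ⟨h.pr', ⟨g⁻¹, inv_cj h1, inv_cj h2⟩, h.nA.symm,
    fun e => h.nB (h1.symm.trans (h.pr.symm.sw' (h2.trans e.symm)))⟩

theorem Two.swap (h : Two r A B A' B') : Two r B A A' B' := by
  obtain ⟨g, h1, h2⟩ := h.ex
  obtain ⟨u, h3, h4⟩ := h.pr.sw
  exact ⟨h.pr.symm, ⟨g * u, by rw [cj_mul, h4, h1], by rw [cj_mul, h3, h2]⟩, h.nB, h.nA⟩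

theorem Two.swap' (h : Two r A B A' B') : Two r A B B' A' := h.symm.swap.symm

theorem Two.iso (h : Two r A B A' B') : Nonempty (A' ≃* A) := by
  obtain ⟨g, rfl, -⟩ := h.ex
  exact ⟨(cjEquiv g A).symm⟩

theorem Two.nc (h : Two r A B A' B') {a x y : G} (ha : a ∈ A) (hx : x ∈ A') (hy : y ∈ B')
    (ox : orderOf x = 2) (oy : orderOf y = 2) : ¬ IsConj a (x * y) := fun c => by
  obtain ⟨g, h1, -⟩ := h.ex
  exact h.pr'.nc _ (h1 ▸ conj_mem_cj.2 ha) x hx y hy ox oy ((isConj_iff.2 ⟨g, rfl⟩).symm.trans c)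

variable [Finite G]

theorem GS.sylA (h : GS r T z u A B) : SylowIn 2 ((T : Subgroup G) ⊓ A) A := by
  refine H44.SubnIn.induction (P := fun K => SylowIn 2 ((T : Subgroup G) ⊓ K) K) ?_
    (fun K L h1 h2 _ h3 => ?_) (H44.IsComponentOf.subnIn h.cA)
  · rw [inf_eq_left.2 h.zc]; exact sylowIn_of_le T h.zc
  · have := h3.inf_of_normal_le h2 h1
    rwa [inf_assoc, inf_eq_right.2 h1] at this

/-- Lemma V. -/
theorem Pr.le_sup (h : Pr r A B) (hY : Nonempty (Y ≃* A)) (hn : Y ≤ NP A B) : Y ≤ A ⊔ B := by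
  obtain ⟨e⟩ := hY
  have tY := h.th.congr e.symm
  have n := perfect_le_of_NP tY.perfect hn
  obtain ⟨-, -, y, hy, -, -, oy, -⟩ := tY.locA
  obtain ⟨a, ha, b, hb, c, hc, rfl⟩ := h.dec
    (in_iff.2 (h.th.perf_le tY.perfect (n.trans inf_le_left) hy))
    (in_iff.2 (h.symm.th.perf_le tY.perfect (n.trans inf_le_right) hy))
  have h1 := pow_orderOf_eq_one (a * b * c)
  rw [oy, Commute.mul_pow (Commute.mul_left (cent hc.1 ha) (cent hc.2 hb)),
    Commute.mul_pow (cent (h.symm.comm hb) ha)] at h1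
  have h2 := (h.dec_uniq (pow_mem ha r) (pow_mem hb r) (pow_mem hc r) (one_mem _) (one_mem _)
    (one_mem _) (by rw [h1, one_mul, one_mul])).2.2
  have := Fact.mk tY.pr
  obtain rfl : c = 1 := by_contra fun c1 =>
    h.rk (orderOf_eq_prime h2 c1 ▸ Subgroup.orderOf_dvd_natCard _ hc)
  have := tY.simple
  rcases H23.IsQuasisimple.eq_or_le_centralizer (H23.isQuasisimple_of_isSimpleGroup tY.na)
    (inf_le_left : Y ⊓ (A ⊔ B) ≤ Y) (H70.le_normalizer_inf le_normalizer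
      (H70.le_normalizer_sup (n.trans inf_le_left) (n.trans inf_le_right))) with d | d
  · exact inf_eq_left.1 d
  · have h3 := mem_bot.1 (tY.inf_cent.le ⟨hy, d ⟨hy, by
      rw [mul_one]; exact mul_mem_sup ha hb⟩⟩)
    rw [h3, orderOf_one] at oy
    exact absurd oy.symm tY.pr.ne_one

/-- Lemma U. -/
theorem Pr.uniq (h : Pr r A B) (hd : d ∈ A) (od : orderOf d = 2) (hY : Nonempty (Y ≃* A))
    (hc : Y ≤ centralizer {d}) : Y = B := by
  have n := hc.trans (h.cA d hd od)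
  have h1 := h.le_sup hY ((le_inf n (h.nn ▸ n)).trans (le_NP A B))
  obtain ⟨e⟩ := hY
  have h2 := h.th.perf_cent (h.th.congr e.symm).perfect n hd od hc
  obtain ⟨u, h3, -⟩ := h.sw
  refine eq_of_le_of_card_ge (fun y hy => ?_)
    (by rw [← h3, card_cj, Nat.card_congr e.toEquiv])
  obtain ⟨a, ha, b, hb, rfl⟩ := h.mem_sup.1 (h1 hy)
  rwa [h.eq_one ha ((mul_mem_cancel_right (h.symm.comm hb)).1 (h2 hy)), one_mul]

/-- Components of `C_K(z)` modulo a central subgroup of `K`. -/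
theorem comp_map {H : Type*} [Group H] (π : G →* H) (hk : π.ker ⊓ K ≤ centralizer (K : Set G))
    (hz : z ∈ normalizer (K : Set G)) (hA : IsComponentOf A (K ⊓ centralizer {z})) :
    IsComponentOf (A.map π) (K.map π ⊓ centralizer {π z}) ∧
      Nonempty ((A.map π ⧸ center (A.map π)) ≃* (A ⧸ center A)) ∧
      (IsPGroup 2 (center A) → IsPGroup 2 (center (A.map π))) := by
  have q := H44.IsComponentOf.isQuasisimple hA
  have aK : A ≤ K := hA.1.trans inf_le_left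
  have q' : IsQuasisimple (A.map π) := H23.IsQuasisimple.map q π fun e =>
    H23.IsQuasisimple.not_le_centralizer q
      (((le_inf ((Subgroup.map_eq_bot_iff A).1 e) aK).trans hk).trans (centralizer_le aK))
  have s : H44.SubnIn (K ⊓ centralizer {z}) (K ⊓ (centralizer {π z}).comap π) := by
    refine H44.SubnIn.of_normalizer (inf_le_inf_left K fun x hx => ?_)
      (le_normalizer_of_forall_cj_le fun k hk' => cj_le_iff'.2 fun x hx => ?_)
    · rw [mem_comap, mem_centralizer_singleton_iff, ← map_mul, mem_centralizer_singleton_iff.1 hx,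
        map_mul]
    · have m := K.mul_mem (K.mul_mem hk'.1 hx.1) (K.inv_mem hk'.1)
      have c := cent (hk (show z * k * z⁻¹ * k⁻¹ ∈ π.ker ⊓ K from mem_inf.2 ⟨by
        rw [MonoidHom.mem_ker, map_mul, map_mul, map_mul, map_inv, map_inv,
          ← mem_centralizer_singleton_iff.1 (mem_comap.1 hk'.2), mul_inv_cancel_right, mul_inv_cancel],
        K.mul_mem (conj_mem_of_mem_normalizer hz hk'.1) (K.inv_mem hk'.1)⟩)) m
      refine ⟨m, mem_centralizer_singleton_iff.2 ?_⟩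
      have cx := mem_centralizer_singleton_iff.1 hx.2
      calc k * x * k⁻¹ * z = k * x * k⁻¹ * (z * k * z⁻¹ * k⁻¹) * (k * z * k⁻¹) := by group
        _ = z * k * (z⁻¹ * (x * z)) * k⁻¹ := by rw [c]; group
        _ = _ := by rw [cx]; group
  have e : (K ⊓ (centralizer {π z}).comap π).map π = K.map π ⊓ centralizer {π z} :=
    le_antisymm (le_inf (map_mono inf_le_left) ((map_mono inf_le_right).trans (map_comap_le _ _)))
      fun _ ⟨⟨k, h1, h2⟩, h3⟩ => ⟨k, ⟨h1, mem_comap.2 (h2 ▸ h3)⟩, h2⟩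
  have su := π.subgroupMap_surjective A
  have ce : (center (A.map π)).comap (π.subgroupMap A) = center A := by
    refine le_antisymm ((H23.IsQuasisimple.normal_eq_top_or_le_center q _).resolve_left fun d => ?_)
      (map_le_iff_le_comap.1 (H23.map_center_le_of_surjective su))
    exact H23.IsQuasisimple.center_ne_top q' (by
      rw [← map_comap_eq_self_of_surjective su (center _), d, map_top_of_surjective _ su])
  refine ⟨H44.isComponentOf_iff.2 ⟨e ▸ ((H44.IsComponentOf.subnIn hA).trans s).map π, q'⟩, ⟨?_⟩,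
    fun p => ?_⟩
  · refine (QuotientGroup.quotientKerEquivOfSurjective
      ((QuotientGroup.mk' (center (A.map π))).comp (π.subgroupMap A))
      ((QuotientGroup.mk'_surjective _).comp su)).symm.trans (QuotientGroup.quotientMulEquivOfEq ?_)
    rw [← MonoidHom.comap_ker, QuotientGroup.ker_mk', ce]
  · rw [← map_comap_eq_self_of_surjective su (center _), ce]
    exact p.map _

/-- A group of characteristic 2 has no component. -/
theorem not_charP (hA : IsComponentOf A K) : ¬ H70.CharP 2 K := fun h => by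
  have q := H44.IsComponentOf.isQuasisimple hA
  have h1 := h.of_isSubnormal hA.1 (H44.IsComponentOf.subnIn hA).2
  have h2 : A ≤ pCoreOf 2 A := (H23.IsQuasisimple.eq_or_le_centralizer q (H70.pCoreOf_le 2 A)
    (H70.le_normalizer_pCoreOf 2 A)).elim (·.ge) fun d =>
      (le_inf le_rfl (le_centralizer_iff.1 d)).trans h1
  have := ((H70.isPGroup_pCoreOf 2 A).to_le h2).isNilpotent
  exact H23.IsQuasisimple.not_isSolvable q inferInstance

end H4.Q16
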