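import Mathlib
import Cfsg.Agent.Base
import Cfsg.Agent.Lib.Q16.Bas2

/-! The dihedral case of the vertical pumpup. -/

set_option autoImplicit false

namespace H4.Q16
open Subgroup Cfsg H68

variable {G : Type*} [Group G] [Finite G] {r : ℕ} {T : Sylow 2 G} {z u t : G} {A B K S : Subgroup G}

omit [Finite G] in
theorem GS.e8_inf (h : GS r T z u A B) (hZ : center A = ⊥) : A ⊓ B = ⊥ :=
  le_bot_iff.1 ((inf_le_inf_left _ h.symm.comm).trans (center_eq_bot_iff.1 hZ).le)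

omit [Finite G] in
theorem GS.e8_uniq (h : GS r T z u A B) (hZ : center A = ⊥) {x x' y y' : G} (hx : x ∈ A) (hx' : x' ∈ A)
    (hy : y ∈ B) (hy' : y' ∈ B) (e : x * y = x' * y') : x = x' ∧ y = y' := by
  have e1 : x'⁻¹ * x = y' * y⁻¹ := by
    rw [inv_mul_eq_iff_eq_mul, ← mul_assoc, ← e, mul_inv_cancel_right]
  have e2 : x'⁻¹ * x = 1 := mem_bot.1 ((h.e8_inf hZ).le
    ⟨A.mul_mem (A.inv_mem hx') hx, e1 ▸ B.mul_mem hy' (B.inv_mem hy)⟩)
  exact ⟨(inv_mul_eq_one.1 e2).symm, (mul_inv_eq_one.1 (e1.symm.trans e2)).symm⟩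

omit [Finite G] in
theorem e8_zp {H : Type*} [Group H] {x y : H} (h : x * x = 1) (hy : y ∈ zpowers x) : y = 1 ∨ y = x := by
  obtain ⟨n, rfl⟩ := hy
  have h2 : x ^ (2 : ℤ) = 1 := by rw [zpow_two, h]
  rcases Int.even_or_odd' n with ⟨k, rfl | rfl⟩
  · left; simp only [zpow_mul, h2, one_zpow]
  · right; simp only [zpow_add, zpow_mul, h2, one_zpow, one_mul, zpow_one]

theorem GS.e8_core (h : GS r T z u A B) (hZ : center A = ⊥) (hD : Dih A) {A' : Subgroup G}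
    (hr : PRankLE 2 2 (MulAut A')) (hT : t ∈ (T : Subgroup G)) (ht : t ∉ normalizer (A : Set G)) (htK : t ∈ K)
    (hn : (T : Subgroup G) ⊓ normalizer (A : Set G) ≤ normalizer (K : Set G))
    (hn' : (T : Subgroup G) ⊓ normalizer (A : Set G) ≤ normalizer (A' : Set G))
    (hc : (T : Subgroup G) ⊓ normalizer (A : Set G) ⊓ K ⊓ centralizer (A' : Set G) ≤
      centralizer (K : Set G)) : False := by
  obtain ⟨s1, s2⟩ := h.swap hT ht
  obtain ⟨a, ha, b, hb, oa, bb, ba, nb, zc⟩ := hD.amb h.sylA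
  have cm : ∀ {x y}, x ∈ A → y ∈ B → Commute x y := fun hx hy => (h.comm hx _ hy).symm
  have tA : ∀ {x}, x ∈ A → t * x * t⁻¹ ∈ B := fun hx => s1 ▸ conj_mem_cj.2 hx
  have tB : ∀ {x}, x ∈ B → t * x * t⁻¹ ∈ A := fun hx => s2 ▸ conj_mem_cj.2 hx
  have tT : ∀ {x}, x ∈ (T : Subgroup G) → t * x * t⁻¹ ∈ (T : Subgroup G) := fun hx =>
    mul_mem (mul_mem hT hx) (inv_mem hT)
  have m1 : ∀ {x}, x ∈ (T : Subgroup G) ⊓ A → x ∈ (T : Subgroup G) ⊓ normalizer (A : Set G) := fun hx =>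
    ⟨hx.1, le_normalizer hx.2⟩
  have m2 : ∀ {x}, x ∈ (T : Subgroup G) ⊓ A → t * x * t⁻¹ ∈ (T : Subgroup G) ⊓ normalizer (A : Set G) :=
    fun hx => ⟨tT hx.1, centralizer_le_normalizer _ (h.symm.comm (tA hx.2))⟩
  have mq : ∀ {d}, d ∈ (T : Subgroup G) ⊓ A →
      d⁻¹ * (t * d * t⁻¹) ∈ (T : Subgroup G) ⊓ normalizer (A : Set G) ⊓ K := fun {d} hd =>
    mem_inf.2 ⟨mul_mem (inv_mem (m1 hd)) (m2 hd), by
      simpa only [mul_assoc] using K.mul_mem (conj_mem_of_mem_normalizer' (hn (m1 hd)) htK) (K.inv_mem htK)⟩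
  have a4 : a * a * (a * a) = 1 := by
    have := pow_orderOf_eq_one a
    rw [oa] at this; rw [← this]; simp only [pow_succ, pow_zero, one_mul, mul_assoc]
  have a2 : a * a ≠ 1 := fun e => by
    have := orderOf_dvd_of_pow_eq_one (show a ^ 2 = 1 by rw [pow_two, e])
    rw [oa] at this; omega
  have ha2 := mul_mem ha ha
  have ai : a⁻¹ * a⁻¹ = a * a := by rw [← mul_inv_rev, inv_eq_of_mul_eq_one_right a4]
  have mz : a * a ∈ (T : Subgroup G) ⊓ normalizer (A : Set G) ⊓ K := ⟨m1 ha2, by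
    have := mul_mem (mq ha).2 (conj_mem_of_mem_normalizer (hn (m1 hb)) (inv_mem (mq ha).2))
    rwa [mul_inv_rev, inv_inv, ← mul_assoc b, (cm hb.2 (B.inv_mem (tA ha.2))).eq, mul_assoc _ b a, mul_assoc _ (b * a),
      ba, mul_assoc, mul_inv_cancel_left, ai] at this⟩
  have mz' : t * (a * a) * t⁻¹ ∈ (T : Subgroup G) ⊓ normalizer (A : Set G) ⊓ K :=
    mem_inf.2 ⟨m2 ha2, K.mul_mem (K.mul_mem htK mz.2) (K.inv_mem htK)⟩
  let W := (T : Subgroup G) ⊓ normalizer (A : Set G) ⊓ K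
  let f : W →* MulAut A' := A'.normalizerMonoidHom.comp (inclusion (inf_le_left.trans hn'))
  have key : ∀ w : W, f w = 1 → ∀ x ∈ (T : Subgroup G) ⊓ A, ∀ y ∈ B, (w : G) = x * y →
      (x = 1 ∨ x = a * a) ∧ y = t * x * t⁻¹ := fun w hw x hx y hy e => by
    have c := hc ⟨w.2, (normalizerMonoidHom_ker A').le hw⟩
    rw [e] at c
    refine ⟨zc x hx fun d hd => ?_, ?_⟩
    · have := c _ (mq (inv_mem hd)).2
      rw [inv_inv] at this
      have m := tA (A.inv_mem hd.2)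
      generalize t * d⁻¹ * t⁻¹ = q at this m
      refine (h.e8_uniq hZ (A.mul_mem hd.2 hx.2) (A.mul_mem hx.2 hd.2) (B.mul_mem m hy) (B.mul_mem hy m) ?_).1.symm
      calc d * x * (q * y) = d * q * (x * y) := by
            rw [mul_assoc d, ← mul_assoc x, (cm hx.2 m).eq, mul_assoc, mul_assoc]
        _ = x * y * (d * q) := this
        _ = _ := by rw [mul_assoc x, ← mul_assoc y, ← (cm hd.2 hy).eq, mul_assoc, mul_assoc]
    · refine (h.e8_uniq hZ hx.2 (tB hy) hy (tA hx.2) ?_).2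
      rw [(cm (tB hy) (tA hx.2)).eq, conj_mul, c t htK, mul_inv_cancel_right]
  have k1 : ∀ {y}, t * (a * a) * t⁻¹ = y → y = t * 1 * t⁻¹ → False := fun e e' =>
    a2 (conj_eq_one_iff.1 (e.trans (e'.trans (by group))))
  have ca : ∀ {d}, d ∈ (T : Subgroup G) ⊓ A → d = a ∨ d = b → Commute (a * a) d := by
    rintro _ - (rfl | rfl)
    · exact (Commute.refl _).mul_left (Commute.refl _)
    · exact (mul_inv_eq_iff_eq_mul.1 (by rw [← conj_mul, ba, ai])).symm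
  have cq : ∀ {d}, d ∈ (T : Subgroup G) ⊓ A → d = a ∨ d = b → Commute (a * a) (d⁻¹ * (t * d * t⁻¹)) :=
    fun hd e => (ca hd e).inv_right.mul_right (cm ha2.2 (tA hd.2))
  have sq : ∀ {x y : G}, Commute x y → x * y * (x * y) = x * x * (y * y) := fun c => by
    rw [← pow_two, c.mul_pow, pow_two, pow_two]
  have fsq : ∀ {w : W}, (w : G) * w = 1 → f w ^ 2 = 1 := fun e => by
    rw [pow_two, ← map_mul, show _ * _ = (1 : W) from Subtype.ext e, map_one]
  have fc : ∀ {v w : W}, Commute (v : G) w → f v * f w = f w * f v := fun c => by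
    rw [← map_mul, ← map_mul]; exact congrArg f (Subtype.ext c)
  let D := (zpowers a ⊔ B).subgroupOf W
  have fin : ∀ y ∈ D, f y ^ 2 = 1 → f ⟨_, mz⟩ * f y = f y * f ⟨_, mz⟩ → f y * f ⟨_, mq hb⟩ = f ⟨_, mq hb⟩ * f y →
      f y ≠ 1 → f y ≠ f ⟨_, mz⟩ → False := fun y hy y2 c1 c2 n1 n2 => by
    refine rank3 Nat.prime_two (rank_congr hr topEquiv.symm) (mem_top _) (mem_top _) (mem_top _) c1
      (fc (cq hb (Or.inr rfl))) c2 (fsq a4) y2 (fsq ?_) (zpowers (f ⟨_, mz⟩)) (D.map f)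
      (fun e => k1 rfl ?_) (mem_zpowers _) (fun m => (e8_zp ((pow_two _).symm.trans (fsq a4)) m).elim n1 n2)
      ⟨_, mem_sup_left (mul_mem (mem_zpowers a) (mem_zpowers a)), rfl⟩ ⟨y, hy, rfl⟩ ?_
    · change b⁻¹ * (t * b * t⁻¹) * (b⁻¹ * (t * b * t⁻¹)) = 1
      rw [sq (cm (A.inv_mem hb.2) (tA hb.2)), ← mul_inv_rev, conj_mul, bb]; group
    · have := (key _ e _ ha2 1 (one_mem _) (mul_one _).symm).2
      rw [← this]; group
    · rintro ⟨v, hv, e⟩
      obtain ⟨x, hx, y, hy, e'⟩ := (mem_sup_of_le_normalizer (zpowers_le.2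
        (centralizer_le_normalizer _ (h.comm ha.2)))).1 hv
      replace e' : (v : G) = x * y := e'
      have mx : x ∈ (T : Subgroup G) ⊓ A := zpowers_le.2 ha hx
      have := (key (⟨_, mq hb⟩⁻¹ * v) (by rw [map_mul, map_inv, e, inv_mul_cancel]) (b * x) (mul_mem hb mx)
        ((t * b * t⁻¹)⁻¹ * y) (mul_mem (inv_mem (tA hb.2)) hy) (by
          change (b⁻¹ * (t * b * t⁻¹))⁻¹ * (v : G) = _
          rw [e', mul_inv_rev, inv_inv, mul_assoc, ← mul_assoc b, ← mul_assoc,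
            ← (cm (mul_mem hb.2 mx.2) (B.inv_mem (tA hb.2))).eq, mul_assoc])).1
      refine nb ((mul_mem_cancel_right hx).1 ?_)
      rcases this with e | e <;> rw [e]
      exacts [one_mem _, mul_mem (mem_zpowers a) (mem_zpowers a)]
  by_cases c : f ⟨_, mz⟩ * f ⟨_, mz'⟩ = 1
  · have cab : Commute (t * a * t⁻¹)⁻¹ b := (cm hb.2 (B.inv_mem (tA ha.2))).symm
    refine fin ⟨_, mq ha⟩ (mul_mem (mem_sup_left (inv_mem (mem_zpowers a))) (mem_sup_right (tA ha.2))) ?_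
      (fc (cq ha (Or.inl rfl))) ?_ (fun e => ?_) fun e => ?_
    · rw [pow_two, ← c, ← map_mul, ← map_mul]
      refine congrArg f (Subtype.ext ?_)
      change a⁻¹ * (t * a * t⁻¹) * (a⁻¹ * (t * a * t⁻¹)) = a * a * (t * (a * a) * t⁻¹)
      rw [sq (cm (A.inv_mem ha.2) (tA ha.2)), ai, conj_mul]
    · rw [← one_mul (f ⟨_, mq hb⟩ * _), ← c, ← map_mul, ← map_mul, ← map_mul, ← map_mul]
      refine congrArg f (Subtype.ext ?_)
      change a⁻¹ * (t * a * t⁻¹) * (b⁻¹ * (t * b * t⁻¹)) =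
        a * a * (t * (a * a) * t⁻¹) * (b⁻¹ * (t * b * t⁻¹) * (a⁻¹ * (t * a * t⁻¹)))
      have mm : ∀ {x x' y y' : G}, x' ∈ A → y ∈ A → x * (t * y * t⁻¹) * (x' * (t * y' * t⁻¹)) =
          x * x' * (t * (y * y') * t⁻¹) := fun {x x' y y'} h1 h2 => by
        rw [mul_assoc x, ← mul_assoc _ x', ← (cm h1 (tA h2)).eq]; group
      have bi : b⁻¹ = b := inv_eq_of_mul_eq_one_right bb
      have e1 : b * a = a⁻¹ * b := mul_inv_eq_iff_eq_mul.1 ba
      have e2 : b * a⁻¹ = a * b := mul_inv_eq_iff_eq_mul.1 (by rw [← conj_inv, ba, inv_inv])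
      rw [mm (A.inv_mem hb.2) ha.2, mm (A.inv_mem ha.2) hb.2,
        mm (A.mul_mem (A.inv_mem hb.2) (A.inv_mem ha.2)) ha2.2, bi, e1, e2, mul_assoc a a (a⁻¹ * b),
        mul_inv_cancel_left, ← ai, mul_assoc a⁻¹ a⁻¹, inv_mul_cancel_left]
    · rcases (key _ e a⁻¹ (inv_mem ha) _ (tA ha.2) rfl).1 with e | e
      · exact a2 (by rw [inv_eq_one.1 e, mul_one])
      · exact a2 (by rw [← ai, e, a4])
    · rcases (key (⟨_, mz⟩⁻¹ * ⟨_, mq ha⟩) (by rw [map_mul, map_inv, e, inv_mul_cancel]) ((a * a)⁻¹ * a⁻¹)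
        (mul_mem (inv_mem ha2) (inv_mem ha)) _ (tA ha.2) (mul_assoc _ _ _).symm).1 with e | e
      · exact a2 (by rw [← ai, ← inv_mul_eq_one.1 e, a4])
      · rw [inv_mul_eq_iff_eq_mul, a4, inv_eq_one] at e
        exact a2 (by rw [e, mul_one])
  · refine fin ⟨_, mz'⟩ (mem_sup_right (tA ha2.2)) (fsq (by rw [conj_mul, a4]; group)) (fc (cm ha2.2 (tA ha2.2)))
      (fc ((cm (A.inv_mem hb.2) (tA ha2.2)).symm.mul_right ((ca hb (Or.inr rfl)).conj t))) (fun e => ?_) fun e => c ?_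
    · exact k1 rfl (key _ e 1 (one_mem _) _ (tA ha2.2) (one_mul _).symm).2
    · rw [e, ← pow_two, fsq a4]

theorem GS.e8 (h : GS r T z u A B) (hZ : center A = ⊥) (hD : Dih A) (hAK : A ≤ K)
    (hn : (T : Subgroup G) ⊓ normalizer (A : Set G) ≤ normalizer (K : Set G))
    (hS : IsPGroup 2 S) (hTS : (T : Subgroup G) ⊓ normalizer (A : Set G) ≤ S) (htS : t ∈ S)
    (htK : t ∈ K) (ht : t ∉ (T : Subgroup G) ⊓ normalizer (A : Set G))
    (hc : (T : Subgroup G) ⊓ normalizer (A : Set G) ⊓ K ⊓ centralizer (A : Set G) ≤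
      centralizer (K : Set G)) : False := by
  have := Fact.mk Nat.prime_two
  set T1 := (T : Subgroup G) ⊓ normalizer (A : Set G) with hT1
  have nrm : ∀ {P : Subgroup G}, T1 ≤ P → T1.relIndex P = 2 → P ≤ normalizer (T1 : Set G) := fun h1 h2 =>
    (normal_subgroupOf_iff_le_normalizer h1).1 (normal_of_index_eq_two h2)
  have c1 : Nat.card T1 * T1.relIndex T = Nat.card T := by
    rw [← card_mul_index (T1.subgroupOf T), Nat.card_congr (subgroupOfEquivOfLe inf_le_left).toEquiv]; rfl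
  rw [h.idx] at c1
  have c2 : Nat.card T1 * T1.relIndex S = Nat.card S := by
    rw [← card_mul_index (T1.subgroupOf S), Nat.card_congr (subgroupOfEquivOfLe hTS).toEquiv]; rfl
  have c3 := (sylowIn_top T).card_le hS le_top
  have i2 : T1.relIndex S = 2 := by
    have e1 : T1.relIndex S ≠ 1 := fun e => ht (relIndex_eq_one.1 e htS)
    have e2 : T1.relIndex S ≠ 0 := index_ne_zero_of_finite
    have e3 : T1.relIndex S ≤ 2 := Nat.le_of_mul_le_mul_left (c2 ▸ c1 ▸ c3) Nat.card_pos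
    omega
  obtain ⟨g, hg, e⟩ := (sylowIn_of_le T (nrm inf_le_left h.idx)).exists_cj_le hS (nrm hTS i2)
  have e1 : cj g T1 = T1 := cj_eq_of_mem_normalizer hg
  refine h.e8_core (t := g * t * g⁻¹) (K := cj g K) hZ hD (hD.congr (cjEquiv g A)).1 (e (conj_mem_cj.2 htS))
    (fun m => ht (conj_mem_cj.1 (e1.ge ⟨e (conj_mem_cj.2 htS), m⟩))) (conj_mem_cj.2 htK) ?_ ?_ ?_
  · rw [← hT1, ← e1, ← cj_normalizer]; exact cj_mono g hn
  · rw [← hT1, ← e1, ← cj_normalizer]; exact cj_mono g inf_le_right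
  · rw [← hT1, ← e1, ← cj_centralizer, ← cj_centralizer, ← cj_inf, ← cj_inf]; exact cj_mono g hc

end H4.Q16
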