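import Mathlib
import Cfsg.Agent.Base
import Cfsg.Agent.Lib.Q16.Bas2

/-! The vertical pumpup: basic facts. -/

set_option autoImplicit false

namespace H4.Q16
open Subgroup Cfsg H68

namespace EC0

variable {G : Type*} [Group G]

theorem mc {x y : G} : x ∈ centralizer ({y} : Set G) ↔ x * y = y * x :=
  mem_centralizer_singleton_iff

theorem sq {x : G} (h : orderOf x = 2) : x * x = 1 := by
  rw [← pow_two, ← h, pow_orderOf_eq_one]

theorem ne1 {x : G} (h : orderOf x = 2) : x ≠ 1 := fun c => by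
  rw [c, orderOf_one] at h
  omega

theorem ord2 {x : G} (h : x * x = 1) (h1 : x ≠ 1) : orderOf x = 2 :=
  orderOf_eq_prime (by rw [pow_two, h]) h1

theorem pw {x : G} (h : x * x = 1) : x ^ 2 ^ 1 = 1 := by rw [pow_one, pow_two, h]

theorem zp {z x : G} (h : z * z = 1) (hx : x ∈ zpowers z) : x = 1 ∨ x = z := by
  obtain ⟨k, rfl⟩ := hx
  have h2 : z ^ (2 : ℤ) = 1 := by rw [zpow_two, h]
  obtain ⟨j, rfl | rfl⟩ := Int.even_or_odd' k
  · left
    show z ^ (2 * j) = 1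
    rw [zpow_mul, h2, one_zpow]
  · right
    show z ^ (2 * j + 1) = z
    rw [zpow_add, zpow_mul, h2, one_zpow, one_mul, zpow_one]

theorem mem_sup {N : Subgroup G} {z x : G} (h : z * z = 1) (hz : z ∈ normalizer (N : Set G))
    (hx : x ∈ N ⊔ zpowers z) : x ∈ N ∨ ∃ s ∈ N, x = z * s := by
  rw [sup_comm] at hx
  obtain ⟨a, ha, b, hb, rfl⟩ := (mem_sup_of_le_normalizer (zpowers_le.2 hz)).1 hx
  rcases zp h ha with rfl | rfl
  · exact Or.inl (by rwa [one_mul])
  · exact Or.inr ⟨b, hb, rfl⟩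

theorem cj_cent (g x : G) : cj g (centralizer ({x} : Set G)) = centralizer {g * x * g⁻¹} := by
  ext y
  rw [mem_cj, mc, mc]
  constructor
  · intro h
    calc y * (g * x * g⁻¹) = g * (g⁻¹ * y * g * x) * g⁻¹ := by group
      _ = g * x * g⁻¹ * y := by rw [h]; group
  · intro h
    calc g⁻¹ * y * g * x = g⁻¹ * (y * (g * x * g⁻¹)) * g := by group
      _ = x * (g⁻¹ * y * g) := by rw [h]; group

theorem cp_conj {K : Subgroup G} (hK : K.Normal) {x : G} (h : H70.CharP 2 (K ⊓ centralizer {x}))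
    (g : G) : H70.CharP 2 (K ⊓ centralizer {g * x * g⁻¹}) := by
  have h1 : H70.CharP 2 (cj g (K ⊓ centralizer {x})) := h.conj g
  rwa [cj_inf, cj_eq_of_normal, cj_cent] at h1

end EC0

open EC0

variable {G : Type*} [Group G] [Finite G] {r : ℕ} {K M S S1 : Subgroup G} {z x s : G}

omit [Finite G] in
theorem KS.zz (h : KS r K M S S1 z) : z * z = 1 := sq h.oz

omit [Finite G] in
theorem KS.dec (h : KS r K M S S1 z) (g : G) : g ∈ K ∨ ∃ k ∈ K, g = z * k :=
  haveI := h.nK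
  mem_sup h.zz (by rw [normalizer_eq_top]; exact mem_top z) (h.gen ▸ mem_top g)

omit [Finite G] in
theorem KS.sq_mem (h : KS r K M S S1 z) (g : G) : g * g ∈ K := by
  rcases h.dec g with c | ⟨k, hk, rfl⟩
  · exact mul_mem c c
  · have := mul_mem (h.nK.conj_mem k hk z) hk
    rwa [inv_eq_of_mul_eq_one_right h.zz, mul_assoc] at this

omit [Finite G] in
theorem KS.p1 (h : KS r K M S S1 z) : IsPGroup 2 S1 := h.syl.isPGroup.to_le h.le

omit [Finite G] in
theorem KS.MK (h : KS r K M S S1 z) : M ≤ K := h.comp.1.trans inf_le_left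

omit [Finite G] in
theorem KS.Mz (h : KS r K M S S1 z) : M ≤ centralizer {z} := h.comp.1.trans inf_le_right

theorem KS.cp_of_cent (h : KS r K M S S1 z) (hx : x ∈ K) (ox : orderOf x = 2)
    (hc : S1 ≤ centralizer {x}) : H70.CharP 2 (K ⊓ centralizer {x}) := by
  have e : centralizer ({⟨x, hx⟩} : Set K) = (K ⊓ centralizer {x}).subgroupOf K := by
    ext y
    rw [mc, mem_subgroupOf, mem_inf, mc]
    exact ⟨fun c => ⟨y.2, congrArg Subtype.val c⟩, fun c => Subtype.ext c.2⟩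
  rcases h.kf ⟨x, hx⟩ (by rw [← ox, orderOf_mk]) with c | ⟨c, -⟩
  · rwa [e, H70.charP_subgroupOf_iff inf_le_left] at c
  · rw [e] at c
    have h1 := relIndex_dvd_of_le_left K (le_inf (h.le.trans h.syl.le) hc)
    rw [← relIndex_mul_relIndex S1 S K h.le h.syl.le] at h1
    have h2 : 2 * 2 ∣ 2 * S.relIndex K := (c.trans h1).trans (Nat.mul_dvd_mul_right h.idx _)
    exact absurd (Nat.dvd_of_mul_dvd_mul_left two_pos h2) h.syl.not_dvd_relIndex

theorem KS.cp_M (h : KS r K M S S1 z) (hx : x ∈ K) (ox : orderOf x = 2) (hz : x * z = z * x)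
    (hp : H70.CharP 2 (K ⊓ centralizer {x})) : H70.CharP 2 (M ⊓ centralizer {x}) := by
  have := h.nK
  have n : ∀ y : G, centralizer {y} ≤ normalizer ((K ⊓ centralizer {y} : Subgroup G) : Set G) :=
    fun y => H70.le_normalizer_inf (by rw [normalizer_eq_top]; exact le_top) le_normalizer
  have h1 : H70.CharP 2 (centralizer {x}) := by
    refine H70.charP_of_isPGroup_centralizer (isPGroup_iff_forall.2 fun g hg => ?_)
    have h2 : g * g ∈ pCoreOf 2 (K ⊓ centralizer {x}) := hp ⟨⟨h.sq_mem g, mul_mem hg.1 hg.1⟩,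
      centralizer_le (H70.pCoreOf_le_pCoreOf_of_normal inf_le_right (n x)) (mul_mem hg.2 hg.2)⟩
    obtain ⟨k, hk⟩ := isPGroup_iff_forall.1 (H70.isPGroup_pCoreOf 2 _) _ h2
    exact ⟨k + 1, by rw [pow_succ', pow_mul, pow_two, hk]⟩
  have h2 := h1.inf_centralizer_singleton (pw h.zz) (mc.2 hz.symm)
  have h3 := ((H44.IsComponentOf.subnIn h.comp).trans
    (H44.SubnIn.of_normalizer inf_le_right (n z))).inf_right (centralizer {x})
  rw [inf_comm (centralizer {z})] at h3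
  exact h2.of_isSubnormal h3.1 h3.2

theorem KS.faith (h : KS r K M S S1 z) : S1 ⊓ centralizer (M : Set G) = ⊥ := by
  by_contra c
  obtain ⟨x, hx, ox, hc⟩ := exists_inv_cent (A := S1 ⊓ centralizer (M : Set G)) h.p1
    (H70.le_normalizer_inf le_normalizer (H70.le_normalizer_centralizer h.nM))
    (dvd_card_of_isPGroup_of_ne_bot h.p1.to_inf_left c le_rfl)
  have xK := h.syl.le (h.le hx.1)
  have h1 := h.cp_M xK ox (mc.1 (h.cz hx.1)) (h.cp_of_cent xK ox hc)
  rw [inf_eq_left.2 (H70.le_centralizer_singleton_iff.2 hx.2)] at h1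
  exact not_charP (H44.IsComponentOf.of_le h.comp le_rfl h.comp.1) h1

theorem KS.center_eq (h : KS r K M S S1 z) : center M = ⊥ := by
  have h1 : IsPGroup 2 (M ⊓ centralizer (M : Set G) : Subgroup G) :=
    isPGroup_iff_forall.2 fun x hx => by
      obtain ⟨k, hk⟩ := isPGroup_iff_forall.1 h.zM ⟨x, hx.1⟩
        (mem_center_iff.2 fun y => Subtype.ext (hx.2 y y.2))
      exact ⟨k, congrArg Subtype.val hk⟩
  have h2 := h.sM.le_of_le_normalizer h1 inf_le_left (inf_le_right.trans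
    (H70.le_normalizer_inf le_normalizer (H70.le_normalizer_centralizer le_normalizer)))
  rw [center_eq_bot_iff, eq_bot_iff, ← h.faith]
  exact le_inf (h2.trans inf_le_left) inf_le_right

theorem KS.thM (h : KS r K M S S1 z) : Th r M := h.th.congr (quot_equiv h.center_eq).some

theorem KS.zK (h : KS r K M S S1 z) : z ∉ K := fun c =>
  not_charP h.comp (h.cp_of_cent c h.oz h.cz)

theorem KS.mem_of_in (h : KS r K M S S1 z) (hs : s ∈ S1) (hi : In M s) : s ∈ M := by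
  obtain ⟨a, ha, hc⟩ := in_iff'.1 hi
  obtain ⟨k, hk⟩ := isPGroup_iff_forall.1 h.p1 s hs
  have h1 : (a⁻¹ * s) ^ 2 ^ k = 1 := by
    have h2 : a ^ 2 ^ k * (a⁻¹ * s) ^ 2 ^ k = 1 := by
      rw [← Commute.mul_pow (hc a ha), mul_inv_cancel_left, hk]
    rw [← mem_bot, ← h.thM.inf_cent]
    exact mem_inf.2 ⟨by rw [eq_inv_of_mul_eq_one_right h2]; exact inv_mem (pow_mem ha _),
      pow_mem hc _⟩
  have h3 : SylowIn 2 S1 (M ⊔ S1) := ⟨le_sup_right, h.p1, fun Q q1 q2 q3 =>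
    le_antisymm (fun q hq => by
      obtain ⟨m, hm, t, ht, rfl⟩ := (mem_sup_of_le_normalizer' h.nM).1 (q3 hq)
      have h4 := h.sM.eq_of_le q1.to_inf_left (inf_le_inf_right M q2) inf_le_right
      exact mul_mem (h4.le ⟨(mul_mem_cancel_right (q2 ht)).1 hq, hm⟩).1 ht) q2⟩
  obtain ⟨g, hg, h4⟩ := h3.exists_cj_le (isPGroup_zpowers h1)
    (zpowers_le.2 (mul_mem_sup (inv_mem ha) hs))
  have h5 : g * (a⁻¹ * s) * g⁻¹ ∈ S1 ⊓ centralizer (M : Set G) :=
    ⟨h4 (conj_mem_cj.2 (mem_zpowers _)), conj_mem_of_mem_normalizer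
      (normalizer_le_normalizer_centralizer M (sup_le le_normalizer h.nM hg)) hc⟩
  rw [h.faith, mem_bot, conj_eq_one_iff, inv_mul_eq_one] at h5
  exact h5 ▸ ha

theorem KS.two_dvd (h : KS r K M S S1 z) : 2 ∣ Nat.card (S1 ⊓ M : Subgroup G) :=
  dvd_card_of_isPGroup_of_ne_bot h.sM.isPGroup
    (h.sM.ne_bot ((show 2 ∣ 4 by norm_num).trans h.thM.four_dvd)) le_rfl

theorem KS.cp_iff (h : KS r K M S S1 z) (hx : x ∈ S1) (ox : orderOf x = 2) :
    H70.CharP 2 (K ⊓ centralizer {x}) ↔ x ∈ M := by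
  constructor
  · intro c
    by_contra hM
    exact (h.thM.outerA (h.nM hx) (sq ox) fun i => hM (h.mem_of_in hx i)).1
      (h.cp_M (h.syl.le (h.le hx)) ox (mc.1 (h.cz hx)) c)
  · intro hM
    obtain ⟨c, hc, oc, h1⟩ := exists_inv_cent (A := S1 ⊓ M) h.p1
      (H70.le_normalizer_inf le_normalizer h.nM) h.two_dvd
    obtain ⟨m, -, rfl⟩ := h.thM.conjA hc.2 hM oc ox
    exact cp_conj h.nK (h.cp_of_cent (h.MK hc.2) oc h1) m

theorem KS.cyc (h : KS r K M S S1 z) : ∃ x ∈ S1, S1 ≤ (S1 ⊓ M) ⊔ zpowers x := by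
  obtain ⟨x, hx, h1⟩ := h.thM.cyc2 h.nM
  refine ⟨x, hx, fun s hs => ?_⟩
  obtain ⟨k, hk⟩ := h1 s hs
  have h2 := mul_mem hs (inv_mem (zpow_mem hx k))
  have h3 := mul_mem_sup (show s * (x ^ k)⁻¹ ∈ S1 ⊓ M from ⟨h2, h.mem_of_in h2 hk⟩)
    (zpow_mem_zpowers x k)
  rwa [inv_mul_cancel_right] at h3

theorem KS.nS (h : KS r K M S S1 z) : S ≤ normalizer (S1 : Set G) := by
  rcases (Nat.dvd_prime Nat.prime_two).1 h.idx with c | c
  · exact (relIndex_eq_one.1 c).trans le_normalizer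
  · exact (normal_subgroupOf_iff_le_normalizer h.le).1 (normal_of_index_eq_two c)

theorem KS.mem_P (h : KS r K M S S1 z) (hx : x ∈ S ⊔ zpowers z) : x ∈ S ∨ ∃ s ∈ S, x = z * s :=
  mem_sup h.zz h.zS hx

theorem KS.sylP (h : KS r K M S S1 z) : SylowIn 2 (S ⊔ zpowers z) ⊤ := by
  refine ⟨le_top, h.syl.isPGroup.to_sup_of_normal_left' (isPGroup_zpowers (pw h.zz))
    (zpowers_le.2 h.zS), fun Q q1 q2 _ => le_antisymm (fun q hq => ?_) q2⟩
  have h1 := h.syl.eq_of_le q1.to_inf_left (le_inf (le_sup_left.trans q2) h.syl.le) inf_le_right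
  rcases h.dec q with c | ⟨k, hk, rfl⟩
  · exact mem_sup_left (h1.le ⟨hq, c⟩)
  · have hz : z ∈ S ⊔ zpowers z := mem_sup_right (mem_zpowers z)
    exact mul_mem hz (mem_sup_left (h1.le ⟨(mul_mem_cancel_left (q2 hz)).1 hq, hk⟩))

end H4.Q16
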