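import Mathlib
import Cfsg.Agent.Base
import Cfsg.Agent.Lib.Q16.EC0

/-! Orbit counting for the vertical pumpup. -/

set_option autoImplicit false

namespace H4.Q16.EC0
open Subgroup Cfsg H68

variable {G : Type*} [Group G]

theorem ncard_orbit (J : Subgroup G) (z : G) :
    Set.ncard {y | ∃ j ∈ J, j * z * j⁻¹ = y} = (centralizer ({z} : Set G)).relIndex J := by
  letI : MulAction J G := MulAction.compHom G (MulAut.conj.comp J.subtype)
  have e : ∀ (j : J) (y : G), j • y = j * y * (j : G)⁻¹ := fun _ _ => rfl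
  have h := MulAction.index_stabilizer J z
  have h1 : MulAction.stabilizer J z = (centralizer ({z} : Set G)).subgroupOf J := by
    ext j
    rw [MulAction.mem_stabilizer_iff, e, mem_subgroupOf, mc, mul_inv_eq_iff_eq_mul]
  have h2 : MulAction.orbit J z = {y | ∃ j ∈ J, j * z * j⁻¹ = y} := by
    ext y
    exact ⟨fun ⟨j, c⟩ => ⟨j, j.2, c⟩, fun ⟨j, hj, c⟩ => ⟨⟨j, hj⟩, c⟩⟩
  rw [h1, h2] at h
  exact h.symm

theorem even_ncard [Finite G] {X : Set G} {t : G} (h1 : t ≠ 1) (h2 : t * t = 1)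
    (h : ∀ w ∈ X, w * t ∈ X) : 2 ∣ X.ncard := by
  classical
  have := Finset.sum_involution (s := X.toFinite.toFinset) (f := fun _ => (1 : ZMod 2))
    (fun w _ => w * t) (fun _ _ => by decide) (fun _ _ _ c => h1 (mul_eq_left.1 c))
    (fun w hw => by simpa using h w (by simpa using hw)) (fun _ _ => by rw [mul_assoc, h2, mul_one])
  rw [Set.ncard_eq_toFinset_card X, ← ZMod.natCast_eq_zero_iff]
  simpa using this

theorem ord_cj (g x : G) : orderOf (g * x * g⁻¹) = orderOf x := (MulAut.conj g).orderOf_eq x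

theorem cj_comm (g : G) {a b : G} (h : a * b = b * a) :
    g * a * g⁻¹ * (g * b * g⁻¹) = g * b * g⁻¹ * (g * a * g⁻¹) := by
  rw [conj_mul, conj_mul, h]

end H4.Q16.EC0
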