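import Mathlib
import Cfsg.Agent.Base
import Cfsg.Agent.Lib.Q16.EC0
import Cfsg.Agent.Lib.Q16.ECa

/-! The vertical pumpup: the index two case is dihedral. -/

set_option autoImplicit false

namespace H4.Q16
open Subgroup Cfsg H68 EC0

variable {G : Type*} [Group G] [Finite G] {r : ℕ} {K M S S1 : Subgroup G} {z : G}

theorem KS.exists_tc (h : KS r K M S S1 z) (hS : ¬ S ≤ centralizer {z}) :
    ∃ t ∈ S, ∃ c ∈ S1 ⊓ M, orderOf c = 2 ∧ t * z * t⁻¹ = z * c ∧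
      ∀ s ∈ S, s ∈ S1 ∨ t⁻¹ * s ∈ S1 := by
  obtain ⟨t, ht, tz⟩ := SetLike.not_le_iff_exists.1 hS
  have i2 : (S1.subgroupOf S).index = 2 :=
    ((Nat.dvd_prime Nat.prime_two).1 h.idx).resolve_left fun c => hS ((relIndex_eq_one.1 c).trans h.cz)
  have t1 : t ∉ S1 := fun c => tz (h.cz c)
  have dec : ∀ s ∈ S, s ∈ S1 ∨ t⁻¹ * s ∈ S1 := fun s hs => or_iff_not_imp_left.2 fun c =>
    (mul_mem_iff_of_index_two i2 (a := ⟨t, ht⟩⁻¹) (b := ⟨s, hs⟩)).2
      (iff_of_false (fun d => t1 (S1.inv_mem_iff.1 d)) c)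
  have zi : z⁻¹ = z := inv_eq_of_mul_eq_one_right h.zz
  have cS : t * z * t⁻¹ * z ∈ S := by
    have := mul_mem ht (conj_mem_of_mem_normalizer h.zS (inv_mem ht))
    rwa [zi, ← mul_assoc, ← mul_assoc] at this
  have c1 : t * z * t⁻¹ * z ≠ 1 := fun c => tz (mc.2 (mul_inv_eq_iff_eq_mul.1 (by
    rw [eq_inv_of_mul_eq_one_left c, zi])))
  have cc : S1 ≤ centralizer {t * z * t⁻¹ * z} := fun s hs => by
    have a1 := cj_comm t (mc.1 (h.cz (conj_mem_of_mem_normalizer' (h.nS ht) hs)))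
    rw [show t * (t⁻¹ * s * t) * t⁻¹ = s by group] at a1
    rw [mc, ← mul_assoc, a1, mul_assoc, mc.1 (h.cz hs), ← mul_assoc]
  generalize hc : t * z * t⁻¹ * z = c at cS c1 cc
  have e1 : t * z * t⁻¹ = c * z := by rw [← hc, mul_assoc _ z z, h.zz, mul_one]
  have e2 : c * z * (c * z) = 1 := by rw [← e1, conj_mul, h.zz]; simp
  have cS1 : c ∈ S1 := (dec c cS).elim id fun d => absurd (by
    have a1 : t⁻¹ * c * z * (t⁻¹ * c)⁻¹ = z := mul_inv_eq_iff_eq_mul.2 (mc.1 (h.cz d))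
    have a2 : c * z * c⁻¹ = c * z :=
      calc c * z * c⁻¹ = t * (t⁻¹ * c * z * (t⁻¹ * c)⁻¹) * t⁻¹ := by group
        _ = c * z := by rw [a1, e1]
    simpa using a2) c1
  have cz := mc.1 (h.cz cS1)
  have oc : orderOf c = 2 := ord2 (by
    rwa [mul_assoc, ← mul_assoc z, ← cz, mul_assoc, h.zz, mul_one] at e2) c1
  exact ⟨t, ht, c, ⟨cS1, (h.cp_iff cS1 oc).1 (h.cp_of_cent (h.syl.le cS) oc cc)⟩, oc,
    e1.trans cz, dec⟩

theorem KS.not_cen (h : KS r K M S S1 z) (hS : ¬ S ≤ centralizer {z}) : ¬ Cen M := by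
  intro hC
  obtain ⟨t, ht, c, hc, oc, e, dec⟩ := h.exists_tc hS
  let E : Subgroup G :=
    { carrier := {x | x ∈ S1 ⊓ M ∧ x * x = 1}
      one_mem' := ⟨one_mem _, mul_one 1⟩
      mul_mem' := fun {a b} ha hb => ⟨mul_mem ha.1 hb.1, by
        rw [mul_assoc, ← mul_assoc b, ← hC.amb h.sM ha.1 ha.2 hb.1, mul_assoc, hb.2, mul_one, ha.2]⟩
      inv_mem' := fun {a} ha => ⟨inv_mem ha.1, by rw [← mul_inv_rev, ha.2, inv_one]⟩ }
  have mE : ∀ x, x ∈ E ↔ x ∈ S1 ⊓ M ∧ x * x = 1 := fun _ => Iff.rfl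
  have sq' : ∀ g x : G, x * x = 1 → g * x * g⁻¹ * (g * x * g⁻¹) = 1 := fun g x d => by
    rw [conj_mul, d]; simp
  have cE : ∀ x ∈ E, S1 ⊓ M ≤ centralizer {x} := fun x hx u hu =>
    mc.2 (hC.amb h.sM hx.1 hx.2 hu).symm
  have nS : S ≤ normalizer (E : Set G) := le_normalizer_of_forall_cj_le fun s hs =>
    cj_le_iff'.2 fun x hx => by
      by_cases x1 : x = 1
      · rw [x1, mul_one, mul_inv_cancel]; exact one_mem E
      have ox := ord2 hx.2 x1
      have a1 := conj_mem_of_mem_normalizer (h.nS hs) hx.1.1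
      exact ⟨⟨a1, (h.cp_iff a1 (by rwa [ord_cj])).1
        (cp_conj h.nK ((h.cp_iff hx.1.1 ox).2 hx.1.2) s)⟩, sq' s x hx.2⟩
  let J : Subgroup G :=
    { carrier := {g | g ∈ normalizer (E : Set G) ∧ ∃ x ∈ E, g * z * g⁻¹ = z * x}
      one_mem' := ⟨one_mem _, 1, one_mem _, by simp⟩
      mul_mem' := fun {a b} ⟨ha, x, hx, ea⟩ ⟨hb, y, hy, eb⟩ => ⟨mul_mem ha hb, _,
        mul_mem hx (conj_mem_of_mem_normalizer ha hy), by
          rw [← mul_assoc z, ← ea, conj_mul, ← eb]; group⟩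
      inv_mem' := fun {a} ⟨ha, x, hx, ea⟩ => ⟨inv_mem ha, _,
        inv_mem (conj_mem_of_mem_normalizer' ha hx), by
          conv_rhs => rw [show z = a⁻¹ * (z * x) * a by rw [← ea]; group]
          group⟩ }
  have mJ : ∀ g ∈ normalizer (E : Set G), g * z = z * g → g ∈ J := fun g hg d =>
    ⟨hg, 1, one_mem _, by rw [d]; simp⟩
  have cE' : c ∈ E := ⟨hc, sq oc⟩
  have tJ : t ∈ J := ⟨nS ht, c, cE', e⟩
  have PJ : S ⊔ zpowers z ≤ J := by
    refine sup_le (fun s hs => ?_) (zpowers_le.2 (mJ z (centralizer_le_normalizer _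
      fun x hx => mc.1 (h.Mz hx.1.2)) rfl))
    rcases dec s hs with d | d
    · exact mJ s (nS hs) (mc.1 (h.cz d))
    · exact (mul_mem_cancel_left (inv_mem tJ)).1 (mJ _ (nS (h.le d)) (mc.1 (h.cz d)))
  have orb : {y | ∃ j ∈ J, j * z * j⁻¹ = y} = (z * ·) '' (E : Set G) := by
    ext y
    constructor
    · rintro ⟨j, ⟨-, x, hx, d⟩, rfl⟩
      exact ⟨x, hx, d.symm⟩
    · rintro ⟨x, hx, rfl⟩
      by_cases x1 : x = 1
      · exact ⟨1, one_mem _, by simp [x1]⟩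
      obtain ⟨m, hm, d⟩ := h.thM.conjA hc.2 hx.1.2 oc (ord2 hx.2 x1)
      obtain ⟨n, hn, n1, -, d⟩ := burnside h.sM (cE c cE') (cE x hx) hm d
      have nz := mc.1 (h.Mz hn)
      refine ⟨n * t, mul_mem (mJ n (mem_normalizer_of_cj_le (cj_le_iff'.2 fun y hy =>
        ⟨conj_mem_of_mem_normalizer n1 hy.1, sq' n y hy.2⟩)) nz) tJ, ?_⟩
      show _ = z * x
      rw [← d, ← mul_assoc z, ← mul_assoc z, ← nz, mul_assoc n z c, ← e]
      group
  have c4 : 4 ∣ Nat.card E := by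
    obtain ⟨a, ha, b, hb, oa, ob, ab, cm⟩ := h.thM.fourA
    obtain ⟨g, -, hg⟩ := h.sM.exists_cj_le (Q := zpowers a ⊔ zpowers b)
      ((isPGroup_zpowers (pw (sq oa))).to_sup_of_normal_left' (isPGroup_zpowers (pw (sq ob)))
        (zpowers_le.2 (centralizer_le_normalizer _ (by
          rw [H70.centralizer_zpowers]; exact mc.2 cm.symm))))
      (sup_le (zpowers_le.2 ha) (zpowers_le.2 hb))
    have a1 : g * a * g⁻¹ ∈ E := ⟨hg (conj_mem_cj.2 (mem_sup_left (mem_zpowers a))), sq' g a (sq oa)⟩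
    have b1 : g * b * g⁻¹ ∈ E := ⟨hg (conj_mem_cj.2 (mem_sup_right (mem_zpowers b))), sq' g b (sq ob)⟩
    have pE : IsPGroup 2 E := isPGroup_iff_forall.2 fun x hx => ⟨1, pw hx.2⟩
    obtain ⟨k, hk⟩ := IsPGroup.iff_card.1 pE
    have l : 2 < Nat.card E := by
      rw [← SetLike.coe_sort_coe, Nat.card_coe_set_eq, Set.two_lt_ncard_iff]
      exact ⟨1, _, _, one_mem E, a1, b1, fun d => ne1 oa (conj_eq_one_iff.1 d.symm),
        fun d => ne1 ob (conj_eq_one_iff.1 d.symm), fun d => ab ((MulAut.conj g).injective d)⟩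
    rw [hk] at l ⊢
    exact pow_dvd_pow 2 (show 2 ≤ k from (Nat.pow_lt_pow_iff_right (by norm_num)).1
      (show 2 ^ 1 < 2 ^ k from l))
  have r1 : (centralizer ({z} : Set G)).relIndex J = Nat.card E := by
    rw [← ncard_orbit, orb, Set.ncard_image_of_injective _ (mul_right_injective z),
      ← Nat.card_coe_set_eq]
    rfl
  have r2 : (centralizer ({z} : Set G)).relIndex (S ⊔ zpowers z) ≤ 2 := by
    have q : ∀ s ∈ S, s * z * s⁻¹ ∈ ({z, z * c} : Set G) := fun s hs => by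
      rcases dec s hs with d | d
      · exact Or.inl (mul_inv_eq_iff_eq_mul.2 (mc.1 (h.cz d)))
      · refine Or.inr (Eq.trans ?_ e)
        conv_rhs => rw [← mul_inv_eq_iff_eq_mul.2 (mc.1 (h.cz d))]
        group
    rw [← ncard_orbit]
    refine (Set.ncard_le_ncard (t := {z, z * c}) ?_).trans ((Set.ncard_insert_le _ _).trans (by simp))
    rintro _ ⟨p, hp, rfl⟩
    rcases h.mem_P hp with d | ⟨s, hs, rfl⟩
    · exact q p d
    · rw [show z * s * z * (z * s)⁻¹ = z * (s * z * s⁻¹) * z⁻¹ by group]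
      rcases q s hs with d | d <;> rw [d]
      · exact Or.inl (by simp)
      · exact Or.inr (calc z * (z * c) * z⁻¹ = z * (c * z) * z⁻¹ := by rw [mc.1 (h.cz hc.1)]
          _ = z * c := by group)
  have r3 := relIndex_dvd_of_le_left J (inf_le_left :
    centralizer ({z} : Set G) ⊓ (S ⊔ zpowers z) ≤ _)
  rw [← relIndex_mul_relIndex _ _ J inf_le_right PJ, inf_relIndex_right, r1] at r3
  have r4 := (h.sylP.mono PJ le_top).not_dvd_relIndex
  have r5 : (centralizer ({z} : Set G)).relIndex (S ⊔ zpowers z) ≠ 0 := index_ne_zero_of_finite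
  have r6 := c4.trans r3
  generalize (centralizer ({z} : Set G)).relIndex (S ⊔ zpowers z) = k at r2 r5 r6
  interval_cases k <;> omega

end H4.Q16
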