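import Mathlib
import Cfsg.Agent.Base
import Cfsg.Agent.Lib.Q16.Bas2

/-! Involutions of `A` act on a different conjugate pair as inner automorphisms. -/

set_option autoImplicit false

namespace H4.Q16
open Subgroup Cfsg H68

variable {G : Type*} [Group G] [Finite G] {r : ℕ} {A B A' B' : Subgroup G} {a : G}

namespace P2a

omit [Finite G] in
theorem o2 {x : G} : orderOf x = 2 ↔ x * x = 1 ∧ x ≠ 1 := by
  rw [orderOf_eq_prime_iff, pow_two]

omit [Finite G] in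
theorem cm {X : Subgroup G} {c x : G} (hc : c ∈ centralizer (X : Set G)) (hx : x ∈ X) :
    x * c = c * x := hc x hx

omit [Finite G] in
/-- the diagonal of a pair swapped by an involution -/
theorem diag (h : Pr r A B) (a2 : a * a = 1) (e : cj a A = B) :
    ∃ Y : Subgroup G, Nonempty (Y ≃* A) ∧ Y ≤ centralizer {a} ∧
      ∀ y, y ∈ Y ↔ ∃ x ∈ A, y = x * (a * x * a⁻¹) := by
  have m : ∀ x ∈ A, a * x * a⁻¹ ∈ B := fun x hx => e ▸ conj_mem_cj.2 hx
  have c : ∀ x ∈ A, ∀ y ∈ A, a * x * a⁻¹ * y = y * (a * x * a⁻¹) := fun x hx y hy =>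
    cm (h.comm hy) (m x hx)
  let f : A →* G := MonoidHom.mk' (fun x => x * (a * x * a⁻¹)) fun x y => by
    calc _ = x * (y * (a * x * a⁻¹)) * (a * y * a⁻¹) := by simp only [coe_mul]; group
      _ = _ := by rw [← c x x.2 y y.2]; group
  have hf : Function.Injective f := (injective_iff_map_eq_one f).2 fun x hx => by
    have h1 : (x : G) = (a * x * a⁻¹)⁻¹ := eq_inv_of_mul_eq_one_left hx
    have h2 : (x : G) ∈ A ⊓ B := mem_inf.2 ⟨x.2, by rw [h1]; exact B.inv_mem (m x x.2)⟩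
    rw [h.disj] at h2
    exact Subtype.ext h2
  refine ⟨f.range, ⟨(MonoidHom.ofInjective hf).symm⟩, ?_, fun y => ⟨?_, ?_⟩⟩
  · rintro _ ⟨x, rfl⟩
    rw [mem_centralizer_singleton_iff]
    change x * (a * x * a⁻¹) * a = a * (x * (a * x * a⁻¹))
    have := c x x.2 x x.2
    calc _ = a * a * (x * (a * x * a⁻¹)) * a := by rw [a2, one_mul]
      _ = a * (a * x * a⁻¹ * (a * a) * x * a⁻¹ * a) := by group
      _ = _ := by rw [a2, mul_one, this]; group
  · rintro ⟨x, rfl⟩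
    exact ⟨x, x.2, rfl⟩
  · rintro ⟨x, hx, rfl⟩
    exact ⟨⟨x, hx⟩, rfl⟩

theorem ncent (h : Two r A B A' B') (ha : a ∈ A) (oa : orderOf a = 2) :
    a ∉ centralizer (A' : Set G) := fun c =>
  h.nB (h.pr.uniq ha oa h.iso fun y hy => mem_centralizer_singleton_iff.2 (cm c hy))

theorem norm (h : Two r A B A' B') (ha : a ∈ A) (oa : orderOf a = 2) (hn : a ∈ NP A' B') :
    a ∈ normalizer (A' : Set G) := by
  rcases hn with ⟨e, -⟩ | ⟨e, -⟩
  · exact mem_normalizer_iff_cj.2 e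
  obtain ⟨Y, iY, cY, mY⟩ := diag h.pr' (o2.1 oa).1 e
  obtain rfl := h.pr.uniq ha oa ⟨iY.some.trans h.iso.some⟩ cY
  obtain ⟨y, hy, -, -, oy, -⟩ := h.pr.symm.th.fourA
  obtain ⟨x, hx, rfl⟩ := (mY y).1 hy
  have m : a * x * a⁻¹ ∈ B' := e ▸ conj_mem_cj.2 hx
  have x2 : x * x = 1 := by
    have h1 : x * x * (a * x * a⁻¹ * (a * x * a⁻¹)) * 1 = 1 * 1 * 1 := by
      have k := cm (h.pr'.comm hx) m
      have k' := (o2.1 oy).1
      generalize a * x * a⁻¹ = w at k k'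
      rw [mul_one, mul_one, mul_one, ← k']
      calc _ = x * (x * w) * w := by group
        _ = _ := by rw [← k]; nth_rewrite 2 [k]; nth_rewrite 2 [k]; group
    exact (h.pr'.dec_uniq (mul_mem hx hx) (mul_mem m m) (one_mem _) (one_mem _) (one_mem _) (one_mem _) h1).1
  have ox : orderOf x = 2 := o2.2 ⟨x2, fun c => (o2.1 oy).2 (by simp [c])⟩
  exact absurd (IsConj.refl _) (h.swap.nc hy hx m ox
    ((MulAut.conj a).orderOf_eq x ▸ ox : orderOf (MulAut.conj a x) = 2))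

omit [Finite G] in
/-- an involution acting as a nontrivial inner automorphism -/
theorem act_inv {X : Subgroup G} (h : Th r X) {x : G} (i : In X x) (x2 : x * x = 1)
    (nc : x ∉ centralizer (X : Set G)) :
    ∃ b ∈ X, orderOf b = 2 ∧ ∀ y ∈ X, x * y * x⁻¹ = b * y * b⁻¹ := by
  obtain ⟨b, hb, e⟩ := i
  refine ⟨b, hb, o2.2 ⟨?_, fun c => nc fun y hy => ?_⟩, e⟩
  · have : b * b ∈ X ⊓ centralizer (X : Set G) := ⟨mul_mem hb hb, fun y hy => by
      have h1 := e _ (mul_mem (mul_mem hb hy) (inv_mem hb))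
      rw [← e y hy] at h1
      calc y * (b * b) = x * (x * y * x⁻¹) * x⁻¹ * (b * b) := by
            rw [show x * (x * y * x⁻¹) * x⁻¹ = x * x * y * (x * x)⁻¹ by group, x2]; simp
        _ = _ := by rw [h1, e y hy]; group⟩
    rwa [h.inf_cent] at this
  · have := e y hy
    rw [c, one_mul, inv_one, mul_one, mul_inv_eq_iff_eq_mul] at this
    exact this.symm

omit [Finite G] in
theorem odd2 {X : Subgroup G} (hp : r.Prime) (h2 : r ≠ 2) (hX : IsPGroup 2 X) {x : G} (hx : x ∈ X)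
    (e : x ^ r = 1) : x = 1 := by
  obtain ⟨k, hk⟩ := isPGroup_iff_forall.1 hX x hx
  have := pow_gcd_eq_one.2 ⟨e, hk⟩
  rwa [((Nat.coprime_primes hp Nat.prime_two).2 h2).pow_right k, pow_one] at this

theorem two (h : Two r A B A' B') (ha : a ∈ A) (oa : orderOf a = 2) (hn : a ∈ normalizer (A' : Set G))
    (ni : ¬ In A' a) : ∃ θ ∈ B, θ ∈ A' ∧ orderOf θ = r := by
  obtain ⟨-, θ, hθ, s, -, o, c1, c2, e⟩ := h.pr'.th.outerA hn (o2.1 oa).1 ni
  have pr := h.pr.th.pr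
  have n1 := h.pr.cA a ha oa (mem_centralizer_singleton_iff.2 c1.symm)
  have n2 := h.pr.cA a ha oa (mem_centralizer_singleton_iff.2 c2.symm)
  have key : ∀ X : Subgroup G, Th r X → θ ∈ normalizer (X : Set G) → s ∈ normalizer (X : Set G) →
      In X θ := fun X t m1 m2 => by
    have h1 := in_iff.1 (t.in_comm m1 m2)
    rw [show θ * s * θ⁻¹ * s⁻¹ = θ * (s * θ * s⁻¹)⁻¹ by group, e, inv_inv, ← pow_two] at h1
    refine in_iff.2 (zpowers_le.2 h1 ?_)
    rw [mem_zpowers_pow_iff, o]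
    exact (Nat.coprime_primes Nat.prime_two pr).2 t.odd.symm
  obtain ⟨a1, ha1, b1, hb1, c, hc, rfl⟩ := h.pr.dec (key A h.pr.th n1 n2)
    (key B h.pr.symm.th (h.pr.nn ▸ n1) (h.pr.nn ▸ n2))
  have k1 : Commute a1 b1 := (cm (h.pr.comm ha1) hb1).symm
  have k2 : Commute a1 c := cm hc.1 ha1
  have k3 : Commute b1 c := cm hc.2 hb1
  have p1 : a1 ^ r * b1 ^ r * c ^ r = 1 * 1 * 1 := by
    rw [← k1.mul_pow, ← (k2.mul_left k3).mul_pow, ← o, pow_orderOf_eq_one, mul_one, mul_one]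
  obtain ⟨p2, -, p3⟩ := h.pr.dec_uniq (pow_mem ha1 r) (pow_mem hb1 r) (pow_mem hc r) (one_mem _)
    (one_mem _) (one_mem _) p1
  obtain rfl : c = 1 := by_contra fun c1 => h.pr.rk (by
    have := Fact.mk pr
    rw [← orderOf_eq_prime p3 c1]
    exact Subgroup.orderOf_dvd_natCard _ hc)
  have k4 : Commute a b1 := (cm (h.pr.comm ha) hb1).symm
  obtain rfl : a1 = 1 := odd2 pr h.pr.th.odd (h.pr.th.cenA ha oa) ⟨ha1, mem_centralizer_singleton_iff.2 (by
    rw [mul_one, mul_assoc, ← k4.eq, ← mul_assoc, ← mul_assoc] at c1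
    exact (mul_right_cancel c1).symm)⟩ p2
  exact ⟨_, by simpa using hb1, hθ, o⟩

theorem three (h : Two r A B A' B') (ha : a ∈ A) (oa : orderOf a = 2) (hn : a ∈ normalizer (A' : Set G)) :
    In A' a := by
  have := Fact.mk Nat.prime_two
  by_contra ni
  have hn' : a ∈ normalizer (B' : Set G) := h.pr'.nn ▸ hn
  have pr := h.pr.th.pr
  obtain ⟨θ, hB, hA', o⟩ := two h ha oa hn ni
  have θ1 : θ ≠ 1 := fun c => pr.ne_one (by rw [← o, c, orderOf_one])
  have θr : θ ^ r = 1 := o ▸ pow_orderOf_eq_one θ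
  by_cases i : In B' a
  swap
  · obtain ⟨θ', hB2, hB', o'⟩ := two h.swap' ha oa hn' i
    refine rank2 pr h.pr.symm.cyc hB hB2 (cm (h.pr'.comm hA') hB').symm θr
      (o' ▸ pow_orderOf_eq_one θ') A' θ1 hA' fun c => pr.ne_one ?_
    have : θ' ∈ A' ⊓ B' := ⟨c, hB'⟩
    rw [h.pr'.disj, mem_bot] at this
    rw [← o', this, orderOf_one]
  have tB := h.pr'.symm.th
  obtain ⟨β, hβ, oβ, e⟩ := act_inv tB i (o2.1 oa).1 (ncent h.swap' ha oa)
  obtain ⟨w1, h1, w2, h2, o1, o2', ne, c⟩ := tB.fourA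
  have pg : ∀ w : G, orderOf w = 2 → IsPGroup 2 (zpowers w) := fun w o =>
    isPGroup_zpowers (k := 1) (by rw [pow_one, ← o, pow_orderOf_eq_one])
  obtain ⟨g, -, hg⟩ := (tB.sylA hβ oβ).exists_cj_le (Q := zpowers w1 ⊔ zpowers w2)
    ((pg w1 o1).to_sup_of_normal_right' (pg w2 o2') (zpowers_le.2 (centralizer_le_normalizer _ (by
      rintro _ ⟨k, rfl⟩
      exact ((show Commute w1 w2 from c).zpow_right k).eq.symm))))
    (sup_le (zpowers_le.2 h1) (zpowers_le.2 h2))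
  have m1 := hg (conj_mem_cj.2 (mem_sup_left (mem_zpowers w1)))
  have m2 := hg (conj_mem_cj.2 (mem_sup_right (mem_zpowers w2)))
  have q1 : orderOf (g * w1 * g⁻¹) = 2 := ((MulAut.conj g).orderOf_eq w1).trans o1
  have q2 : orderOf (g * w2 * g⁻¹) = 2 := ((MulAut.conj g).orderOf_eq w2).trans o2'
  have ne' : g * w1 * g⁻¹ ≠ g * w2 * g⁻¹ := fun c => ne (by simpa using c)
  have c' : g * w1 * g⁻¹ * (g * w2 * g⁻¹) = g * w2 * g⁻¹ * (g * w1 * g⁻¹) := by
    rw [conj_mul, conj_mul, c]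
  generalize g * w1 * g⁻¹ = v1 at m1 q1 ne' c'
  generalize g * w2 * g⁻¹ = v2 at m2 q2 ne' c'
  have key : ∀ v ∈ B' ⊓ centralizer {β}, orderOf v = 2 → v ∈ normalizer (B : Set G) ∧ ¬ In B v :=
    fun v hv ov => by
      have k1 : v * a = a * v := by
        have := e v hv.1
        rw [← mem_centralizer_singleton_iff.1 hv.2, mul_inv_cancel_right, mul_inv_eq_iff_eq_mul] at this
        exact this.symm
      refine ⟨h.pr.nn ▸ h.pr.cA a ha oa (mem_centralizer_singleton_iff.2 k1), fun i => ?_⟩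
      obtain ⟨b, hb, ob, e'⟩ := act_inv h.pr.symm.th i (o2.1 ov).1 (ncent h.symm.swap.swap' hv.1 ov)
      refine θ1 (odd2 pr h.pr.th.odd (h.pr.symm.th.cenA hb ob) ⟨hB, mem_centralizer_singleton_iff.2 ?_⟩ θr)
      have := e' θ hB
      rw [cm (h.pr'.comm hA') hv.1, mul_inv_cancel_right, eq_mul_inv_iff_mul_eq] at this
      exact this
  have i1 : In B 1 := ⟨1, one_mem _, fun _ _ => rfl⟩
  refine (key (v1 * v2) (mul_mem m1 m2) (o2.2 ⟨?_, fun c => ne' ?_⟩)).2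
    (h.pr.symm.th.in_mul (key v1 m1 q1).1 (key v2 m2 q2).1 ((o2.1 q1).1 ▸ i1) ((o2.1 q2).1 ▸ i1)
      (key v1 m1 q1).2 (key v2 m2 q2).2)
  · rw [mul_assoc, ← mul_assoc v2, ← c', mul_assoc, (o2.1 q2).1, mul_one, (o2.1 q1).1]
  · exact mul_right_cancel (c.trans (o2.1 q2).1.symm)

end P2a

open P2a in
theorem Two.inner (h : Two r A B A' B') (ha : a ∈ A) (oa : orderOf a = 2) (hn : a ∈ NP A' B') :
    Inner A' B' a := by
  have n1 := norm h ha oa hn
  obtain ⟨a1, ha1, b1, hb1, c, hc, e⟩ := h.pr'.dec (three h ha oa n1)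
    (three h.swap' ha oa (h.pr'.nn ▸ n1))
  have k1 : Commute a1 b1 := (cm (h.pr'.comm ha1) hb1).symm
  have k2 : Commute a1 c := cm hc.1 ha1
  have k3 : Commute b1 c := cm hc.2 hb1
  have p1 : a1 ^ 2 * b1 ^ 2 * c ^ 2 = 1 * 1 * 1 := by
    rw [← k1.mul_pow, ← (k2.mul_left k3).mul_pow, ← e, ← oa, pow_orderOf_eq_one, mul_one, mul_one]
  obtain ⟨p2, p3, p4⟩ := h.pr'.dec_uniq (pow_mem ha1 2) (pow_mem hb1 2) (pow_mem hc 2) (one_mem _)
    (one_mem _) (one_mem _) p1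
  rw [pow_two] at p2 p3 p4
  refine ⟨a1, ha1, b1, hb1, c, hc, o2.2 ⟨p2, fun c1 => ncent h ha oa ?_⟩,
    o2.2 ⟨p3, fun c1 => ncent h.swap' ha oa ?_⟩, p4, e⟩
  · rw [e, c1, one_mul]
    exact mul_mem (h.pr'.symm.comm hb1) hc.1
  · rw [e, c1, mul_one]
    exact mul_mem (h.pr'.comm ha1) hc.2

end H4.Q16
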