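import Mathlib
import Cfsg.Agent.Base
import Cfsg.Agent.Lib.Q16.P2a

/-! Involutions of `A` normalise no other conjugate pair. -/

set_option autoImplicit false

namespace H4.Q16
open Subgroup Cfsg H68

variable {G : Type*} [Group G] [Finite G] {r : ℕ} {A B A' B' : Subgroup G} {a : G}

namespace P2b
open Bas2

variable {P : Subgroup G}

omit [Finite G] in
theorem sq {x : G} (h : orderOf x = 2) : x * x = 1 := by rw [← pow_two, ← h, pow_orderOf_eq_one]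

omit [Finite G] in
theorem ord {x y : G} (hx : orderOf x = 2) (hy : orderOf y = 2) (c : x * y = y * x) (n : x ≠ y) :
    orderOf (x * y) = 2 :=
  orderOf_eq_prime (by rw [Commute.mul_pow c, pow_two, pow_two, sq hx, sq hy, mul_one]) fun e =>
    n (mul_right_cancel (e.trans (sq hy).symm))

omit [Finite G] in
theorem mem_NP' (h : Pr r A B) {x : G} (hx : x ∈ normalizer (A : Set G)) : x ∈ NP A B :=
  le_NP A B ⟨hx, h.nn ▸ hx⟩

omit [Finite G] in
theorem part (h : Pr r A B) {α β σ x : G} (hβ : β ∈ B)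
    (hσ : σ ∈ centralizer (A : Set G) ⊓ centralizer (B : Set G)) (hx : x ∈ A) :
    x * (α * β * σ) = α * β * σ * x ↔ x * α = α * x := by
  rw [mul_assoc α, mul_assoc α, ← cent (mul_mem (h.symm.comm hβ) (mem_inf.1 hσ).1) hx, ← mul_assoc,
    ← mul_assoc α, mul_left_inj]

theorem noinv (h : Two r A B A' B') {t : G} (h1 : t ∈ A) (h2 : t ∈ A') : orderOf t ≠ 2 := fun o => by
  obtain ⟨α, hα, β, hβ, σ, hσ, -, ob, -, e⟩ := h.inner h1 o (mem_NP' h.pr' (le_normalizer h2))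
  have := (h.pr'.dec_uniq hα hβ hσ h2 (one_mem _) (one_mem _) (by rw [← e, mul_one, mul_one])).2.1
  rw [this, orderOf_one] at ob
  exact absurd ob (by decide)

theorem syl {H X S : Subgroup G} (hP : SylowIn 2 P H) (hn : H ≤ normalizer (X : Set G))
    (hS : SylowIn 2 S X) (h : S ≤ H) : SylowIn 2 (P ⊓ X) X :=
  hS.of_card_le hP.isPGroup.to_inf_left inf_le_right
    ((hP.inf_of_le_normalizer hn).card_le hS.isPGroup (le_inf h hS.le))

theorem W {A₁ B₁ A₂ B₂ : Subgroup G} (h1 : Pr r A₁ B₁) (h2 : Pr r A₂ B₂) (e : A₂ ≃* A₁) {d : G}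
    (d1 : d ∈ A₁) (d2 : d ∈ A₂) (o : orderOf d = 2) : A₂ = A₁ ∧ B₂ = B₁ := by
  obtain ⟨u, a1, -⟩ := h1.sw
  obtain ⟨v, -, a2⟩ := h2.sw
  obtain rfl : B₂ = B₁ := h1.uniq d1 o ⟨((cjEquiv v B₂).trans (MulEquiv.subgroupCongr a2)).trans e⟩
    (H70.le_centralizer_singleton_iff.2 (h2.comm d2))
  obtain ⟨b, hb, -, -, ob, -⟩ := h1.symm.th.fourA
  exact ⟨h1.symm.uniq hb ob ⟨e.trans ((cjEquiv u A₁).trans (MulEquiv.subgroupCongr a1))⟩
    (H70.le_centralizer_singleton_iff.2 (h2.symm.comm hb)), rfl⟩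

/-- a 2-group normalising both pairs -/
structure St (r : ℕ) (A B A' B' P : Subgroup G) : Prop where
  two : Two r A B A' B'
  p : IsPGroup 2 P
  n : P ≤ normalizer (A : Set G)
  n' : P ≤ normalizer (A' : Set G)

omit [Finite G] in
theorem St.symm (h : St r A B A' B' P) : St r A' B' A B P := ⟨h.two.symm, h.p, h.n', h.n⟩
omit [Finite G] in
theorem St.swap (h : St r A B A' B' P) : St r B A A' B' P :=
  ⟨h.two.swap, h.p, h.two.pr.nn ▸ h.n, h.n'⟩

theorem St.comm (h : St r A B A' B' P) {x y : G} (hx : x ∈ P ⊓ A) (hy : y ∈ P ⊓ A') :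
    x * y = y * x := by
  have h1 : P ⊓ (A ⊓ A') = ⊥ := by_contra fun n => by
    obtain ⟨t, ht⟩ := exists_prime_orderOf_dvd_card' 2
      (dvd_card_of_isPGroup_of_ne_bot h.p.to_inf_left n le_rfl)
    exact noinv h.two t.2.2.1 t.2.2.2 ((orderOf_coe t).trans ht)
  obtain ⟨x1, x2⟩ := mem_inf.1 hx
  obtain ⟨y1, y2⟩ := mem_inf.1 hy
  refine mul_inv_eq_iff_eq_mul.1 (mul_inv_eq_one.1 (mem_bot.1 (h1.le (mem_inf.2
    ⟨mul_mem (mul_mem (mul_mem x1 y1) (inv_mem x1)) (inv_mem y1), mem_inf.2 ⟨?_,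
      mul_mem (conj_mem_of_mem_normalizer (h.n' x1) y2) (inv_mem y2)⟩⟩))))
  simpa only [mul_assoc] using mul_mem x2 (conj_mem_of_mem_normalizer (h.n y1) (inv_mem x2))

theorem St.I (h : St r A B A' B' P) (s : SylowIn 2 (P ⊓ A) A) {p α β σ : G} (hp : p ∈ P ⊓ A')
    (op : orderOf p = 2) (hα : α ∈ A) (hβ : β ∈ B)
    (hσ : σ ∈ centralizer (A : Set G) ⊓ centralizer (B : Set G)) (oα : orderOf α = 2)
    (oβ : orderOf β = 2) (e : p = α * β * σ) : P ⊓ A ≤ centralizer {α} ∧ ∃ β' ∈ B',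
      ∃ σ' ∈ centralizer (A' : Set G) ⊓ centralizer (B' : Set G), α = p * β' * σ' := by
  have pr := h.two.pr
  have c : P ⊓ A ≤ centralizer {α} := fun x hx => mem_centralizer_singleton_iff.2
    ((part pr hβ hσ hx.2).1 (e ▸ h.comm hx hp))
  have m : α ∈ P ⊓ A := s.le_of_normalizes (isPGroup_zpowers (k := 1) (by rw [pow_one, pow_two, sq oα]))
    (zpowers_le.2 hα) (zpowers_le.2 (centralizer_le_normalizer _
      (H70.le_centralizer_singleton_iff.1 c))) (mem_zpowers α)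
  obtain ⟨α', hα', β', hβ', σ', hσ', o', -, -, e'⟩ := h.two.inner hα oα (mem_NP' h.two.pr' (h.n' m.1))
  refine ⟨c, β', hβ', σ', hσ', e'.trans (by_contra fun n => ?_)⟩
  have c' := (part h.two.pr' hβ' hσ' hp.2).1 (e' ▸ (h.comm m hp).symm)
  obtain ⟨k, hk, ek⟩ := h.two.pr'.th.conjA hα' (mul_mem hp.2 hα') o'
    (ord op o' c' fun d => n (by rw [d]))
  have x1 : k * α * k⁻¹ = p * α := by
    rw [e', mul_assoc α', ← conj_mul, ek,
      cent (mul_mem (h.two.pr'.symm.comm hβ') (mem_inf.1 hσ').1) hk, mul_inv_cancel_right, mul_assoc]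
  have x2 : p * α = β * σ := by
    rw [e, ← (part pr hβ hσ hα).2 rfl, ← mul_assoc, ← mul_assoc, sq oα, one_mul]
  have h1 := (pr.cj k).uniq (conj_mem_cj.2 hα) ((ord_cj k α).trans oα) ⟨cjEquiv k A⟩
    (H70.le_centralizer_singleton_iff.2 (by
      rw [x1, x2]; exact mul_mem (pr.symm.comm hβ) (mem_inf.1 hσ).1))
  have h2 : β * σ ∈ B := by
    rw [← x2, ← x1, ← pr.symm.sw' h1.symm]; exact conj_mem_cj.2 hα
  rw [pr.symm.eq_one ((mul_mem_cancel_left hβ).1 h2) hσ.2, mul_one] at e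
  exact h.two.symm.nc hp.2 hα hβ oα oβ (e ▸ IsConj.refl _)

theorem St.J (h : St r A B A' B' P) (s : SylowIn 2 (P ⊓ A) A) {p q k : G} (hp : p ∈ P ⊓ A')
    (hq : q ∈ P ⊓ A') (op : orderOf p = 2) (oq : orderOf q = 2) (n : q ≠ p) (hk : k ∈ A')
    (ek : k * p * k⁻¹ = q * p) :
    ∃ g ∈ A, Odd (orderOf g) ∧ cj g A' = cj k A ∧ cj g B' = cj k B := by
  have pr := h.two.pr
  obtain ⟨e, he, β, hβ, σ, hσ, oe, oβ, -, e1⟩ := h.two.symm.inner hp.2 op (mem_NP' pr (h.n hp.1))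
  obtain ⟨f, hf, γ, hγ, τ, hτ, of, oγ, -, e2⟩ := h.two.symm.inner hq.2 oq (mem_NP' pr (h.n hq.1))
  obtain ⟨c1, β', hβ', σ', hσ', e3⟩ := h.I s hp op he hβ hσ oe oβ e1
  obtain ⟨c2, γ', hγ', τ', hτ', e4⟩ := h.I s hq oq hf hγ hτ of oγ e2
  have m : f ∈ P ⊓ A := s.le_of_normalizes (isPGroup_zpowers (k := 1) (by rw [pow_one, pow_two, sq of]))
    (zpowers_le.2 hf) (zpowers_le.2 (centralizer_le_normalizer _
      (H70.le_centralizer_singleton_iff.1 c2))) (mem_zpowers f)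
  obtain ⟨g0, hg0, eg0⟩ := pr.th.conjA hf (mul_mem hf he) of
    (ord of oe (mem_centralizer_singleton_iff.1 (c1 m)) fun d =>
      n (h.two.pr'.dec_uniq hq.2 hγ' hτ' hp.2 hβ' hσ' (by rw [← e3, ← e4, d])).1)
  obtain ⟨g, hg, -, og, eg⟩ := burnside s c2 (H70.le_centralizer_singleton_iff.2 (mul_mem
    (H70.le_centralizer_singleton_iff.1 c2) (H70.le_centralizer_singleton_iff.1 c1))) hg0 eg0
  have t := mul_mem (pr.symm.comm hγ) (mem_inf.1 hτ).1
  have x1 : g * q * g⁻¹ = q * e := by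
    rw [e2, mul_assoc f, ← conj_mul, eg, cent t hg, mul_inv_cancel_right, mul_assoc, cent t he,
      ← mul_assoc]
  have x2 : k * e * k⁻¹ = q * e := by
    rw [e3, mul_assoc p, ← conj_mul, ek,
      cent (mul_mem (h.two.pr'.symm.comm hβ') (mem_inf.1 hσ').1) hk, mul_inv_cancel_right, mul_assoc]
  obtain ⟨i⟩ := h.two.iso
  exact ⟨g, hg, og, W (pr.cj k) (h.two.pr'.cj g) (((cjEquiv g A').symm.trans i).trans (cjEquiv k A))
    (conj_mem_cj.2 he) (x2 ▸ x1 ▸ conj_mem_cj.2 hq.2) ((ord_cj k e).trans oe)⟩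

theorem cen_le (h : Two r A B A' B') (ha : a ∈ A) (oa : orderOf a = 2) {α β σ : G} (hβ : β ∈ B')
    (hσ : σ ∈ centralizer (A' : Set G) ⊓ centralizer (B' : Set G)) (e : a = α * β * σ) :
    A' ⊓ centralizer {α} ≤ normalizer (A : Set G) := fun _ hx =>
  h.pr.cA a ha oa (mem_centralizer_singleton_iff.2
    (e ▸ (part h.pr' hβ hσ hx.1).2 (mem_centralizer_singleton_iff.1 hx.2)))

end P2b

open P2b Bas2 in
theorem Two.not_mem (h : Two r A B A' B') (ha : a ∈ A) (oa : orderOf a = 2) : a ∉ NP A' B' := by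
  intro hn
  obtain ⟨α', hα', β', hβ', σ', hσ', o', -, -, e'⟩ := h.inner ha oa hn
  have l' := cen_le h ha oa hβ' hσ' e'
  obtain ⟨α, hα, β, hβ, σ, hσ, oα, oβ, -, e⟩ := h.symm.inner hα' o'
    (mem_NP' h.pr (l' ⟨hα', mem_centralizer_singleton_iff.2 rfl⟩))
  have l1 := cen_le h.symm hα' o' hβ hσ e
  have l2 := cen_le h.swap.symm hα' o' hα ⟨hσ.2, hσ.1⟩ (e.trans (by rw [cent (h.pr.symm.comm hβ) hα]))
  obtain ⟨P, hP⟩ := exists_sylowIn 2 (normalizer (A : Set G) ⊓ normalizer (A' : Set G))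
  have S : St r A B A' B' P := ⟨h, hP.isPGroup, hP.le.trans inf_le_left, hP.le.trans inf_le_right⟩
  have sA := syl hP inf_le_left (h.pr.th.sylA hα oα) (le_inf (inf_le_left.trans le_normalizer) l1)
  have sB := syl hP (h.pr.nn ▸ inf_le_left) (h.pr.symm.th.sylA hβ oβ)
    (le_inf (h.pr.nn ▸ inf_le_left.trans le_normalizer) l2)
  have sA' := syl hP inf_le_right (h.pr'.th.sylA hα' o') (le_inf l' (inf_le_left.trans le_normalizer))
  obtain ⟨x, hx, y, hy, ox, oy, n, c⟩ := h.pr'.th.fourA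
  obtain ⟨g, -, hg⟩ := sA'.exists_cj_le (h.pr'.th.cenA hx ox) inf_le_left
  have hp := hg (conj_mem_cj.2 ⟨hx, mem_centralizer_singleton_iff.2 rfl⟩)
  have hq := hg (conj_mem_cj.2 ⟨hy, mem_centralizer_singleton_iff.2 c.symm⟩)
  have op := (ord_cj g x).trans ox
  have oq := (ord_cj g y).trans oy
  have n' : g * y * g⁻¹ ≠ g * x * g⁻¹ := fun d => n (by simpa using d.symm)
  obtain ⟨k, hk, ek⟩ := h.pr'.th.conjA hp.2 (A'.mul_mem hq.2 hp.2) op
    (ord oq op (by rw [conj_mul, conj_mul, c]) n')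
  obtain ⟨g1, m1, o1, a1, -⟩ := S.J sA hp hq op oq n' hk ek
  obtain ⟨g2, m2, o2, -, b2⟩ := S.swap.J sB hp hq op oq n' hk ek
  have sw : cj (g2⁻¹ * g1) A' = B' := by rw [cj_mul, a1, ← b2, cj_inv_cj]
  have od : Odd (orderOf (g2⁻¹ * g1)) := Odd.of_dvd_nat (Odd.mul (by rwa [orderOf_inv]) o1)
    (Commute.orderOf_mul_dvd_mul_orderOf (cent (h.pr.comm m1) (inv_mem m2)))
  generalize g2⁻¹ * g1 = d at sw od
  obtain ⟨j, hj⟩ := od
  have d2 : d ^ 2 ∈ normalizer (A' : Set G) :=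
    mem_normalizer_iff_cj.2 (by rw [pow_two, cj_mul, sw, h.pr'.sw' sw])
  have d1 : d ∈ normalizer (A' : Set G) := by
    have := one_mem (normalizer (A' : Set G))
    rwa [← pow_orderOf_eq_one d, hj, pow_succ, pow_mul, mul_mem_cancel_left (pow_mem d2 j)] at this
  exact h.pr'.ne ((mem_normalizer_iff_cj.1 d1).symm.trans sw)

end H4.Q16
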