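import Mathlib
import Cfsg.Agent.Base
import Cfsg.Agent.Lib.Q16.Bas
import Cfsg.Agent.Lib.AutCl.PSLOut
import Cfsg.Agent.Lib.AutCl.Galois
import Cfsg.Agent.Lib.GL.SylowSL2
import Cfsg.Agent.Lib.Inv73.D8

/-! `L₂(p)`: Sylow 2-subgroups and the 2-rank of the automorphism group. -/

set_option autoImplicit false

namespace H4.Q16
open Subgroup Cfsg H68
open scoped MatrixGroups

namespace ThD
open Matrix H67

variable {F : Type*} [Field F]

theorem tr_zero [Finite F] {M : GL (Fin 2) F} (h2 : pslInn (Fin 2) F M * pslInn (Fin 2) F M = 1)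
    (h1 : pslInn (Fin 2) F M ≠ 1) : M.1 0 0 + M.1 1 1 = 0 := by
  rw [← map_mul, pslInn_eq_one_iff (by simp),
    GeneralLinearGroup.mem_center_iff_val_mem_range_scalar] at h2
  obtain ⟨c, hc⟩ := h2
  by_contra ht
  refine h1 ((pslInn_eq_one_iff (by simp)).2
    (GeneralLinearGroup.mem_center_iff_val_mem_range_scalar.2 ⟨M.1 0 0, ?_⟩))
  have e : ∀ i j, scalar (Fin 2) c i j = (M.1 * M.1) i j := fun i j => by rw [hc]; rfl
  have e0 := e 0 0
  have e1 := e 0 1
  have e2 := e 1 0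
  have e3 := e 1 1
  simp only [scalar_apply, diagonal_apply, Matrix.mul_apply, Fin.sum_univ_two] at e0 e1 e2 e3
  simp only [if_true, zero_ne_one, one_ne_zero, if_false] at e0 e1 e2 e3
  have f1 : M.1 0 1 = 0 := (mul_eq_zero.1 (show M.1 0 1 * (M.1 0 0 + M.1 1 1) = 0 by
    linear_combination -e1)).resolve_right ht
  have f2 : M.1 1 0 = 0 := (mul_eq_zero.1 (show M.1 1 0 * (M.1 0 0 + M.1 1 1) = 0 by
    linear_combination -e2)).resolve_right ht
  have f3 : M.1 0 0 - M.1 1 1 = 0 := (mul_eq_zero.1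
    (show (M.1 0 0 - M.1 1 1) * (M.1 0 0 + M.1 1 1) = 0 by
      linear_combination e3 - e0)).resolve_right ht
  ext i j
  fin_cases i <;> fin_cases j <;> simp [f1, f2, sub_eq_zero.1 f3]

theorem anti {M N : Matrix (Fin 2) (Fin 2) F} (h1 : M 0 0 + M 1 1 = 0) (h2 : N 0 0 + N 1 1 = 0)
    (h3 : (M * N) 0 0 + (M * N) 1 1 = 0) : M * N = -(N * M) := by
  simp only [Matrix.mul_apply, Fin.sum_univ_two] at h3
  ext i j
  fin_cases i <;> fin_cases j <;> simp [Matrix.mul_apply, Fin.sum_univ_two]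
  · linear_combination h3 + N 0 0 * h1 - M 1 1 * h2
  · linear_combination N 0 1 * h1 + M 0 1 * h2
  · linear_combination N 1 0 * h1 + M 1 0 * h2
  · linear_combination h3 + N 1 1 * h1 - M 0 0 * h2

theorem rank [Finite F] (h2 : (2 : F) ≠ 0) (hs : Function.Surjective (pslInn (Fin 2) F)) :
    PRankLE 2 2 (MulAut PSL(2, F)) := fun A hA hp => by
  classical
  by_contra hc
  have ex : ∀ s : Finset (MulAut PSL(2, F)), s.card ≤ 4 → ∃ x ∈ A, x ∉ s := fun s h4 => by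
    by_contra! h
    refine hc ?_
    have := Set.ncard_le_ncard (s := (A : Set (MulAut PSL(2, F)))) (t := s) h s.finite_toSet
    rw [Set.ncard_coe_finset] at this
    exact (this.trans h4 :)
  have sq : ∀ a ∈ A, a * a = 1 := fun a ha => by rw [← pow_two, hp a ha]
  obtain ⟨x, hx, x1⟩ := ex {1} (by simp)
  obtain ⟨y, hy, y1⟩ := ex {1, x} (Finset.card_le_two.trans (by norm_num))
  obtain ⟨w, hw, w1⟩ := ex {1, x, y, x * y} Finset.card_le_four
  simp only [Finset.mem_insert, Finset.mem_singleton, not_or] at x1 y1 w1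
  have ne : ∀ a ∈ A, ∀ b, b ≠ a → a * b ≠ 1 := fun a ha b h e =>
    h (mul_left_cancel (e.trans (sq a ha).symm))
  obtain ⟨M, rfl⟩ := hs x
  obtain ⟨N, rfl⟩ := hs y
  obtain ⟨P, rfl⟩ := hs w
  have t : ∀ X : GL (Fin 2) F, pslInn (Fin 2) F X ∈ A → pslInn (Fin 2) F X ≠ 1 →
      X.1 0 0 + X.1 1 1 = 0 := fun X h1 h3 => tr_zero (sq _ h1) h3
  have t2 : ∀ X Y : GL (Fin 2) F, pslInn (Fin 2) F X ∈ A → pslInn (Fin 2) F Y ∈ A →
      pslInn (Fin 2) F X ≠ 1 → pslInn (Fin 2) F Y ≠ 1 → pslInn (Fin 2) F Y ≠ pslInn (Fin 2) F X →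
      X.1 * Y.1 = -(Y.1 * X.1) := fun X Y a b c d e =>
    anti (t X a c) (t Y b d) (t (X * Y) (by rw [map_mul]; exact mul_mem a b)
      (by rw [map_mul]; exact ne _ a _ e))
  have e1 := t2 M P hx hw x1 w1.1 w1.2.1
  have e2 := t2 N P hy hw y1.1 w1.1 w1.2.2.1
  have e3 := t2 (M * N) P (by rw [map_mul]; exact mul_mem hx hy) hw
    (by rw [map_mul]; exact ne _ hx _ y1.2) w1.1 (by rw [map_mul]; exact w1.2.2.2)
  have e4 : (P * (M * N)).1 = -(P * (M * N)).1 := by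
    simp only [Units.val_mul] at e3 ⊢
    conv_rhs => rw [← e3, Matrix.mul_assoc, e2, Matrix.mul_neg, ← Matrix.mul_assoc, e1]
    simp [Matrix.mul_assoc]
  have e5 : (2 : F) • (P * (M * N)).1 = 0 := by
    rw [two_smul]; nth_rewrite 1 [e4]; exact neg_add_cancel _
  exact (P * (M * N)).ne_zero ((smul_eq_zero.1 e5).resolve_left h2)

theorem surj [Fintype F] (hp : (Fintype.card F).Prime) :
    Function.Surjective (pslInn (Fin 2) F) := fun β => by
  have : Fact (Fintype.card F).Prime := ⟨hp⟩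
  obtain ⟨_, ⟨M, rfl⟩, σ, rfl⟩ := psl_aut_two (ι := Fin 2) (by simp) β
  have h1 : orderOf σ ∣ 1 := orderOf_ringAut_dvd (p := Fintype.card F) (by simp) σ
  rw [orderOf_eq_one_iff.1 (Nat.dvd_one.1 h1), map_one, mul_one]
  exact ⟨M, rfl⟩

theorem gens {G : Type*} [Group G] [Finite G] {U : Subgroup G} {k : ℕ}
    (e : U ≃* DihedralGroup (2 ^ (k + 2))) : ∃ a ∈ U, ∃ b ∈ U, orderOf a = 4 ∧ b * b = 1 ∧
    b * a * b⁻¹ = a⁻¹ ∧ b ∉ zpowers a ∧ ∀ c ∈ U, (∀ d ∈ U, c * d = d * c) → c = 1 ∨ c = a * a := by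
  obtain ⟨r, b, h⟩ := H73.exists_dihData (by positivity) e
  have o4 : orderOf (r ^ 2 ^ k) = 4 := by
    rw [orderOf_pow_of_dvd (by positivity) (by rw [h.ord]; exact pow_dvd_pow 2 (by omega)), h.ord,
      pow_add, Nat.mul_div_cancel_left _ (by positivity)]
    rfl
  refine ⟨r ^ 2 ^ k, pow_mem h.a_mem _, b, h.b_mem, o4, h.bb, ?_, fun hb => h.notMem ?_,
    fun c hc hd => ?_⟩
  · rw [← conj_pow, h.conj, inv_pow]
  · exact zpowers_le.2 (pow_mem (mem_zpowers r) _) hb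
  · have c1 : c ∈ zpowers r :=
      h.mem_zpowers_of_commute (H73.not_pow_dvd_two k) hc (hd r h.a_mem)
    have c2 : c * c = 1 := by
      obtain ⟨i, rfl⟩ := c1
      have := h.conj_zpow i
      rw [← hd b h.b_mem, mul_inv_cancel_right] at this
      exact mul_eq_one_iff_eq_inv.2 this
    have a4 : r ^ 2 ^ k * r ^ 2 ^ k * (r ^ 2 ^ k * r ^ 2 ^ k) = 1 := by
      rw [← pow_orderOf_eq_one (r ^ 2 ^ k), o4]; group
    have a2 : r ^ 2 ^ k * r ^ 2 ^ k ≠ 1 := fun e2 => by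
      have := orderOf_dvd_of_pow_eq_one ((pow_two _).trans e2)
      rw [o4] at this
      omega
    refine or_iff_not_imp_left.2 fun c0 => ?_
    have := cyc_two (C := zpowers r) (u := ⟨c, c1⟩)
      (v := ⟨_, mul_mem (pow_mem (mem_zpowers r) (2 ^ k)) (pow_mem (mem_zpowers r) (2 ^ k))⟩)
      (Subtype.ext c2) (Subtype.ext a4) (fun e => c0 (congrArg Subtype.val e))
      (fun e => a2 (congrArg Subtype.val e))
    exact mul_right_cancel ((congrArg Subtype.val this).trans a4.symm)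

end ThD

theorem dih_prime {F : Type} [Field F] [Fintype F] (hp : (Fintype.card F).Prime)
    (h8 : Fintype.card F % 8 = 1 ∨ Fintype.card F % 8 = 7) : Dih PSL(2, F) := by
  rw [← Nat.card_eq_fintype_card] at h8
  have ho : Odd (Nat.card F) := Nat.odd_iff.2 (by omega)
  refine ⟨ThD.rank (H10.two_ne_zero_of_odd_card ho) (ThD.surj hp), fun U => ?_⟩
  obtain ⟨k, hk, -, -, -, h⟩ := H10.exists_sylow_two_SL_two ho
  obtain ⟨e⟩ := h U
  have h1 := H10.card_PSL_two (F := F)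
  have h3 : 2 ^ 3 ∣ Nat.card PSL(2, F) := by
    rw [Nat.gcd_eq_left (by omega)] at h1
    refine Nat.dvd_of_mul_dvd_mul_left two_pos (h1 ▸ ?_)
    rw [mul_assoc]
    refine Dvd.dvd.mul_left ?_ _
    rcases h8 with h | h
    · exact Nat.mul_comm 2 _ ▸ Nat.mul_dvd_mul (by omega) (by omega)
    · exact Nat.mul_dvd_mul (by omega) (by omega)
  have h4 := U.pow_dvd_card_of_pow_dvd_card h3
  rw [Nat.card_congr e.toEquiv, DihedralGroup.nat_card, ← pow_succ'] at h4
  have h5 := (Nat.pow_dvd_pow_iff_le_right one_lt_two).1 h4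
  obtain ⟨j, rfl⟩ : ∃ j, k = j + 2 := ⟨k - 2, by omega⟩
  exact ThD.gens e

end H4.Q16
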