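import Mathlib
import Cfsg.Agent.Base
import Cfsg.Agent.Lib.Q16.Defs
import Cfsg.Agent.Lib.AutCl.PSLLang
import Cfsg.Agent.Lib.SL2Elt.Order

/-! `L₂(2ⁿ)`. -/

set_option autoImplicit false

namespace H4.Q16
open Subgroup Cfsg H68
open scoped MatrixGroups

namespace ThE

section
variable {L : Type*} [Group L]

theorem cen_of (h : ∀ g : L, ∀ k : ℕ, g ^ 2 ^ k = 1 → g * g = 1) : Cen L := fun U a ha _ b hb => by
  have s : ∀ c ∈ (U : Subgroup L), c⁻¹ = c := fun c hc =>
    let ⟨k, hk⟩ := H70.isPGroup_iff_mem.1 U.isPGroup' c hc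
    inv_eq_of_mul_eq_one_right (h c k hk)
  rw [← s _ (mul_mem ha hb), mul_inv_rev, s a ha, s b hb]

/-- a subgroup containing a symmetric group of degree three does not have characteristic two -/
theorem not_charP [Finite L] (h : Cen L) {C : Subgroup L} {x s : L} (hx : x ∈ C) (hs : s ∈ C)
    (ox : orderOf x = 3) (s2 : s * s = 1) (e : s * x * s⁻¹ = x⁻¹) : ¬ H70.CharP 2 C := fun c => by
  have key : ∀ t ∈ C, t * t = 1 → ∀ q ∈ pCoreOf 2 C, Commute t q := fun t ht t2 q hq => by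
    obtain ⟨U, hU⟩ := (IsPGroup.to_sup_of_normal_right' (H70.isPGroup_zpowers (k := 1) (by
      rwa [pow_one, pow_two])) (H70.isPGroup_pCoreOf 2 C)
      ((zpowers_le.2 ht).trans (H70.le_normalizer_pCoreOf 2 C))).exists_le_sylow
    exact h U t (hU (mem_sup_left (mem_zpowers t))) t2 q (hU (mem_sup_right hq))
  have x1 : x = 1 := c.eq_one hx (by rw [ox]; decide) fun q hq => by
    have h1 := (key _ (mul_mem (mul_mem hx hs) (inv_mem hx)) (by
      rw [conj_mul, s2, mul_one, mul_inv_cancel]) q hq).mul_left (key s hs s2 q hq).inv_left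
    rw [show x * s * x⁻¹ * s⁻¹ = x * (s * x * s⁻¹)⁻¹ by group, e, inv_inv] at h1
    have h2 := h1.pow_left 2
    rw [← pow_two, ← pow_mul, show 2 * 2 = 3 + 1 from rfl, pow_succ, ← ox, pow_orderOf_eq_one,
      one_mul] at h2
    exact mem_centralizer_singleton_iff.2 h2.symm
  rw [x1, orderOf_one] at ox
  exact absurd ox (by decide)

theorem sq_of {a : L} (h : orderOf a = 2) : a * a = 1 := by rw [← pow_two, ← h, pow_orderOf_eq_one]

theorem ne_of {a : L} (h : orderOf a = 2) : a ≠ 1 := fun e => by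
  rw [e, orderOf_one] at h; exact absurd h (by decide)

theorem norm_cent [Finite L] (h : ∀ a : L, a * a = 1 → a ≠ 1 → ∀ g, g * a = a * g → g * g = 1)
    {u x : L} (u2 : u * u = 1) (u1 : u ≠ 1) (c : u * (x * u * x⁻¹) = x * u * x⁻¹ * u) :
    x ∈ normalizer (centralizer ({u} : Set L) : Set L) := mem_normalizer_fintype fun n hn => by
  have v2 : x * u * x⁻¹ * (x * u * x⁻¹) = 1 := by rw [conj_mul, u2, mul_one, mul_inv_cancel]
  have v1 : x * u * x⁻¹ ≠ 1 := fun e => u1 (conj_eq_one_iff.1 e)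
  have c' : x * n * x⁻¹ * (x * u * x⁻¹) = x * u * x⁻¹ * (x * n * x⁻¹) := by
    rw [conj_mul, conj_mul, mem_centralizer_singleton_iff.1 hn]
  have h1 := inv_eq_of_mul_eq_one_right (h _ v2 v1 _ (Commute.mul_left c' c))
  rw [mul_inv_rev, inv_eq_of_mul_eq_one_right u2, inv_eq_of_mul_eq_one_right (h _ v2 v1 _ c')] at h1
  exact mem_centralizer_singleton_iff.2 h1.symm

end

open H64.SL2 H67

variable {F : Type} [Field F] (h2 : (2 : F) = 0)
include h2

theorem sq_tr {g : SL(2, F)} (h : tr g = 0) : g * g = 1 := by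
  rw [mul_self_eq_neg_one_of_tr h, neg_eq_self_of_two_eq_zero h2]

theorem ncen {g : SL(2, F)} (h : g ≠ 1) : g ∉ center SL(2, F) := by
  rwa [center_eq_bot_of_two_eq_zero h2, mem_bot]

theorem tr_inv {g : SL(2, F)} (h : g * g = 1) (h1 : g ≠ 1) : tr g = 0 :=
  (mem_center_or_tr_eq_zero_of_sq (h ▸ one_mem _)).resolve_left (ncen h2 h1)

theorem cenS (a : SL(2, F)) (a2 : a * a = 1) (a1 : a ≠ 1) (g : SL(2, F)) (c : g * a = a * g) :
    g * g = 1 := by
  obtain ⟨x, y, e0, -, -, e1⟩ := (commute_iff_of_not_mem_center (ncen h2 a1)).1 c.symm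
  have := tr_inv h2 a2 a1
  refine sq_tr h2 ?_
  rw [tr] at this ⊢
  rw [e0, e1]
  linear_combination x * h2 + y * this

theorem cenP (a : PSL(2, F)) (a2 : a * a = 1) (a1 : a ≠ 1) (g : PSL(2, F)) (c : g * a = a * g) :
    g * g = 1 := by
  obtain ⟨a, rfl⟩ := (projEquiv h2).surjective a
  obtain ⟨g, rfl⟩ := (projEquiv h2).surjective g
  rw [← map_mul, MulEquiv.map_eq_one_iff] at a2 ⊢
  rw [← map_mul, ← map_mul, (projEquiv h2).apply_eq_iff_eq] at c
  exact cenS h2 a a2 (fun e => a1 (by rw [e, map_one])) g c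

variable [Fintype F]

theorem sqP (g : PSL(2, F)) (k : ℕ) (h : g ^ 2 ^ k = 1) : g * g = 1 := by
  obtain ⟨g, rfl⟩ := (projEquiv h2).surjective g
  rw [← map_pow, MulEquiv.map_eq_one_iff] at h
  rw [← map_mul, MulEquiv.map_eq_one_iff]
  by_cases ht : tr g ^ 2 = 4
  · exact sq_tr h2 (pow_eq_zero_iff two_ne_zero |>.1 (by linear_combination ht + 2 * h2))
  have ev : Even (Nat.card F) := by
    by_contra o
    rw [Nat.not_even_iff_odd, Nat.card_eq_fintype_card] at o
    exact two_ne_zero_of_odd o h2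
  have key : ∀ m, Odd m → g ^ m = 1 → g * g = 1 := fun m hm e => by
    rw [H70.eq_one_of_coprime_of_pow (Nat.coprime_two_right.2
      (hm.of_dvd_nat (orderOf_dvd_of_pow_eq_one e))) h, one_mul]
  by_cases hs : Split g
  · exact key _ (Nat.Even.sub_odd Nat.card_pos ev odd_one) (pow_eq_one_of_split ht hs)
  · exact key _ ev.add_one (pow_eq_one_of_not_split hs)

theorem conjP (a b : PSL(2, F)) (ha : orderOf a = 2) (hb : orderOf b = 2) : IsConj a b := by
  obtain ⟨a, rfl⟩ := (projEquiv h2).surjective a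
  obtain ⟨b, rfl⟩ := (projEquiv h2).surjective b
  rw [MulEquiv.orderOf_eq] at ha hb
  have k : ∀ c : SL(2, F), orderOf c = 2 → IsConj (comp 0) c := fun c hc => by
    rw [← tr_inv h2 (sq_of hc) (ne_of hc)]
    exact isConj_comp_of_two_eq_zero h2 (ncen h2 (ne_of hc))
  exact (projEquiv h2).toMonoidHom.map_isConj ((k a ha).symm.trans (k b hb))

theorem range_le : (pslInn (Fin 2) F).range ≤ Inn PSL(2, F) := by
  rintro _ ⟨g, rfl⟩
  obtain ⟨c, hc⟩ := exists_sq_eq_of_two_eq_zero h2 ((Matrix.GeneralLinearGroup.det g : Fˣ) : F)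
  have c0 : c ≠ 0 := fun e => (Matrix.GeneralLinearGroup.det g).ne_zero (by rw [← hc, e]; ring)
  have : Matrix.GeneralLinearGroup.det g ∈ (center (GL (Fin 2) F)).map Matrix.GeneralLinearGroup.det := by
    rw [map_det_center]
    exact ⟨Units.mk0 c c0, Units.ext hc⟩
  obtain ⟨y, hy, e⟩ := this
  rw [inn_psl_eq]
  refine ⟨y⁻¹ * g, ?_, ?_⟩
  · rw [SetLike.mem_coe, MonoidHom.mem_ker, map_mul, map_inv, e, inv_mul_cancel]
  · rw [map_mul, map_inv, (pslInn_eq_one_iff (by simp)).2 hy, inv_one, one_mul]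

theorem outP : IsCyclic (Out PSL(2, F)) :=
  isCyclic_of_surjective ((QuotientGroup.mk' (Inn PSL(2, F))).comp (pslField (Fin 2) F)) fun β => by
    obtain ⟨β, rfl⟩ := QuotientGroup.mk_surjective β
    obtain ⟨d, hd, σ, rfl⟩ := psl_aut_two (by simp) β
    exact ⟨σ, by
      rw [QuotientGroup.mk_mul, (QuotientGroup.eq_one_iff d).2 (range_le h2 hd), one_mul]; rfl⟩

omit [Fintype F] in
theorem s3 : ∃ x s : PSL(2, F), orderOf x = 3 ∧ s * s = 1 ∧ s * x * s⁻¹ = x⁻¹ ∧
    ∀ σ, pslField (Fin 2) F σ x = x ∧ pslField (Fin 2) F σ s = s := by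
  have : Fact (Nat.Prime 3) := ⟨Nat.prime_three⟩
  let x : SL(2, F) := mk 0 (-1) 1 (-1) (by ring)
  let s : SL(2, F) := mk 0 1 (-1) 0 (by ring)
  refine ⟨projEquiv h2 x, projEquiv h2 s, ?_, ?_, ?_, fun σ => ⟨?_, ?_⟩⟩
  · rw [MulEquiv.orderOf_eq]
    refine orderOf_eq_prime ?_ ?_
    · rw [pow_three]; simp [ent, x]
    · simp [ent, x]
  · rw [← map_mul, sq_tr h2 (by simp [ent, s]), map_one]
  · rw [← map_inv, ← map_inv, ← map_mul, ← map_mul]
    congr 1
    simp only [ent, x, s]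
    refine ⟨?_, ?_, ?_, ?_⟩
    · ring
    · linear_combination -h2
    · linear_combination h2
    · ring
  · refine indAut_mk toGL_inj ⟨glField _ σ, field_mem_stab_sl σ⟩ (Units.ext ?_)
    change (x : Matrix (Fin 2) (Fin 2) F) = (x : Matrix (Fin 2) (Fin 2) F).map σ
    ext i j; fin_cases i <;> fin_cases j <;> simp [x, H64.SL2.coe_mk]
  · refine indAut_mk toGL_inj ⟨glField _ σ, field_mem_stab_sl σ⟩ (Units.ext ?_)
    change (s : Matrix (Fin 2) (Fin 2) F) = (s : Matrix (Fin 2) (Fin 2) F).map σ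
    ext i j; fin_cases i <;> fin_cases j <;> simp [s, H64.SL2.coe_mk]

theorem outerP {n : ℕ} (hF : Fintype.card F = 2 ^ n) {φ : MulAut PSL(2, F)} (p2 : φ * φ = 1)
    (hφ : φ ∉ Inn PSL(2, F)) : Even n ∧ ∃ x s : PSL(2, F), orderOf x = 3 ∧ s * s = 1 ∧
      s * x * s⁻¹ = x⁻¹ ∧ φ x = x ∧ φ s = s := by
  obtain ⟨d, hd, σ, rfl⟩ := psl_aut_two (by simp) φ
  have N := normal_range_pslInn (ι := Fin 2) (F := F) (by simp)
  have s1 : σ ≠ 1 := fun e => hφ (by rw [e, map_one, mul_one]; exact range_le h2 hd)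
  have s2 : σ ^ 2 = 1 := pslField_mem_range (ι := Fin 2) (by simp) (by
    rw [← QuotientGroup.eq_one_iff, pow_two, map_mul]
    have := congrArg (QuotientGroup.mk (s := (pslInn (Fin 2) F).range)) p2
    rwa [QuotientGroup.mk_mul, QuotientGroup.mk_mul, (QuotientGroup.eq_one_iff d).2 hd, one_mul] at this)
  have o := orderOf_eq_prime s2 s1
  obtain ⟨k, -, e⟩ := psl_field_coset (by simp) σ d hd ((orderOf_eq_prime (by rwa [pow_two])
    fun e => hφ (by rw [e]; exact one_mem _)).trans o.symm)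
  obtain ⟨x, s, ox, ss, sx, f⟩ := s3 h2
  refine ⟨even_iff_two_dvd.2 ?_, k x, k s, by rwa [MulEquiv.orderOf_eq], by rw [← map_mul, ss, map_one],
    by rw [← map_inv, ← map_mul, ← map_mul, sx, map_inv], by simp [e, (f σ).1], by simp [e, (f σ).2]⟩
  rw [← o, ← card_ringAut (F := F) (p := 2) (f := n) (by rwa [Nat.card_eq_fintype_card])]
  exact orderOf_dvd_natCard σ

end ThE

open ThE H64.SL2 in
theorem th_even {F : Type} [Field F] [Fintype F] {n : ℕ} (hn : 2 ≤ n) (hF : Fintype.card F = 2 ^ n) :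
    ∃ r, Th r PSL(2, F) := by
  classical
  have h2 : (2 : F) = 0 := two_eq_zero_of_even (hF ▸ dvd_pow_self 2 (by omega))
  have h4 : 2 ^ 2 ≤ 2 ^ n := Nat.pow_le_pow_right two_pos hn
  obtain ⟨r, pr, hr, r3⟩ : ∃ r : ℕ, r.Prime ∧ r ∣ 2 ^ n - 1 ∧ (Even n → r = 3) := by
    by_cases e : Even n
    · obtain ⟨m, rfl⟩ := e
      refine ⟨3, Nat.prime_three, ?_, fun _ => rfl⟩
      rw [← two_mul, pow_mul]
      exact Nat.sub_one_dvd_pow_sub_one 4 m
    · obtain ⟨r, h1, h3⟩ := Nat.exists_prime_and_dvd (n := 2 ^ n - 1) (by omega)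
      exact ⟨r, h1, h3, fun h => absurd h e⟩
  have C : Cen PSL(2, F) := cen_of (sqP h2)
  let u : F → SL(2, F) := fun t => mk 1 t 0 1 (by ring)
  have u2 : ∀ t, projEquiv h2 (u t) * projEquiv h2 (u t) = 1 := fun t => by
    rw [← map_mul, sq_tr h2 (by simpa [ent, u, one_add_one_eq_two] using h2), map_one]
  have u1 : ∀ t, t ≠ 0 → projEquiv h2 (u t) ≠ 1 := fun t ht => by
    rw [Ne, MulEquiv.map_eq_one_iff]; simp [ent, u, ht]
  have ou : ∀ t, t ≠ 0 → orderOf (projEquiv h2 (u t)) = 2 := fun t ht =>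
    orderOf_eq_prime (by rw [pow_two, u2]) (u1 t ht)
  have cen : ∀ a : PSL(2, F), orderOf a = 2 → IsPGroup 2 (centralizer ({a} : Set PSL(2, F))) :=
    fun a ha => H70.isPGroup_iff_mem.2 fun g hg => ⟨1, by
      rw [pow_one, pow_two]
      exact cenP h2 a (sq_of ha) (ne_of ha) g (mem_centralizer_singleton_iff.1 hg)⟩
  refine ⟨r, Matrix.ProjectiveSpecialLinearGroup.rank_two_simple (by
    rw [Nat.card_eq_fintype_card, hF]; exact h4), fun h => ?_, pr, fun e => ?_, ?_, conjP h2, cen,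
    outP h2, ?_, fun φ p2 hφ => ?_, .inl C⟩
  · obtain ⟨x, s, ox, -, sx, -⟩ := s3 h2
    rw [h.is_comm.comm s x, mul_inv_cancel_right, eq_inv_iff_mul_eq_one, ← pow_two] at sx
    exact absurd (ox ▸ orderOf_dvd_of_pow_eq_one sx) (by decide)
  · have : 2 ∣ 2 ^ n := dvd_pow_self 2 (by omega)
    subst e
    omega
  · obtain ⟨c, hc⟩ : ∃ c : F, c ∉ ({0, 1} : Finset F) := Finset.exists_mem_notMem_of_card_lt_card
      (t := Finset.univ) (lt_of_le_of_lt Finset.card_le_two (by rw [Finset.card_univ, hF]; omega)) |>.imp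
      fun _ h => h.2
    simp only [Finset.mem_insert, Finset.mem_singleton, not_or] at hc
    refine ⟨_, _, ou 1 one_ne_zero, ou c hc.1, ?_, ?_⟩
    · rw [Ne, (projEquiv h2).apply_eq_iff_eq]; simp [ent, u, Ne.symm hc.2]
    · rw [← map_mul, ← map_mul]; congr 1; simp [ent, u, add_comm]
  · have := Fact.mk pr
    obtain ⟨a, ha⟩ := exists_prime_orderOf_dvd_card (G := Fˣ) r (by rwa [Fintype.card_units, hF])
    refine ⟨_, projEquiv h2 (diagHom a), fun e => u1 1 one_ne_zero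
      (mem_bot.1 (e ▸ mem_centralizer_singleton_iff.2 rfl)), cen _ (ou 1 one_ne_zero), ?_,
      norm_cent (cenP h2) (u2 1) (u1 1 one_ne_zero) ?_⟩
    · rw [MulEquiv.orderOf_eq, orderOf_injective _ diagHom_injective, ha]
    · simp only [← map_inv (projEquiv h2), ← map_mul (projEquiv h2)]
      congr 1
      simp [ent, u, diagHom_apply, add_comm]
  · obtain ⟨ev, x, s, ox, ss, sx, fx, fs⟩ := outerP h2 hF p2 hφ
    exact ⟨not_charP C (C := fixedSubgroup φ) fx fs ox ss sx, x, s, r3 ev ▸ ox, fx, fs, sx⟩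

end H4.Q16
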