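import Mathlib
import Cfsg.Agent.Base
import Cfsg.Agent.Lib.Q16.Bas
import Cfsg.Agent.Lib.Suzuki.Aut
import Cfsg.Agent.Lib.Suzuki.LieModel
import Cfsg.Agent.Lib.AutCl.Galois
import Cfsg.Agent.Lib.CompW.RankOne

/-! `Sz(q)`. -/

set_option autoImplicit false

namespace H4.Q16
open Subgroup Cfsg H68

namespace ThS
open H14.Sz

theorem model {L : Type*} [Group L] (h : Lie.IsoSuzuki L) :
    ∃ (F : Type) (_ : Field F) (_ : Fintype F) (m : ℕ) (_ : SzF F m), Nonempty (Model L F m) := by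
  obtain ⟨F, _, _, m, h1, h2, ⟨e⟩⟩ := h
  have : SzF F m := ⟨h1, h2⟩
  exact ⟨F, _, _, m, this, ⟨(lieModel F m).comap e⟩⟩

variable {L : Type*} [Group L] {F : Type*} [Field F] [Fintype F] {m : ℕ} [hz : SzF F m]
  (S : Model L F m)
include S

theorem cen : Cen L := fun U a ha h2 b hb => by
  obtain ⟨g, hg⟩ := S.exists_conj_U_eq U
  have ha' : a ∈ (S.conj g).U := hg ▸ ha
  have hb' : b ∈ (S.conj g).U := hg ▸ hb
  exact ((S.conj g).commute_of_mem_Z hb' ((S.conj g).mem_Z_iff.2 ⟨ha', h2⟩)).symm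

theorem surj : Function.Surjective ((QuotientGroup.mk' (Inn L)).comp S.fieldAutHom) := fun y => by
  obtain ⟨α, rfl⟩ := QuotientGroup.mk_surjective y
  obtain ⟨g, φ, rfl⟩ := S.exists_eq_conj_mul_fieldAut α
  refine ⟨φ, ?_⟩
  rw [QuotientGroup.mk_mul, (QuotientGroup.eq_one_iff (N := Inn L) _).2 ⟨g, rfl⟩, one_mul]
  rfl

theorem inn {φ : MulAut L} (h : φ * φ = 1) : φ ∈ Inn L := by
  obtain ⟨σ, hσ⟩ := surj S (φ : Out L)
  have h1 : orderOf (φ : Out L) ∣ 2 := orderOf_dvd_of_pow_eq_one (by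
    rw [pow_two, ← QuotientGroup.mk_mul, h, QuotientGroup.mk_one])
  have h2 : orderOf (φ : Out L) ∣ 2 * m + 1 :=
    (hσ ▸ orderOf_map_dvd _ σ).trans (H67.orderOf_ringAut_dvd (p := 2) natCard_eq σ)
  have h3 : orderOf (φ : Out L) = 1 := Nat.eq_one_of_dvd_coprimes (by simp) h1 h2
  exact (QuotientGroup.eq_one_iff _).1 (orderOf_eq_one_iff.1 h3)

theorem th : ∃ r, Th r L := by
  have := S.finite
  obtain ⟨k, hk⟩ := exists_unit_ne_one F
  have h1 : Nat.card Fˣ ≠ 1 := fun e => hk ((Nat.card_eq_one_iff_unique.1 e).1.elim _ _)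
  obtain ⟨r, hr, hd⟩ := Nat.exists_prime_and_dvd h1
  have : Fact r.Prime := ⟨hr⟩
  obtain ⟨l, hl⟩ := exists_prime_orderOf_dvd_card' r hd
  have k0 : (k : F) ≠ 0 := k.ne_zero
  refine ⟨r, S.isSimpleGroup, S.not_commutative, hr, ?_, ⟨S.u 0 1, S.u 0 k,
    S.orderOf_u_zero one_ne_zero, S.orderOf_u_zero k0, fun e => hk (Units.ext ?_), ?_⟩,
    fun a b ha hb => ?_, fun a ha => ?_, isCyclic_of_surjective _ (surj S),
    ⟨S.U, S.h l, S.U_ne_bot, S.isPGroup_U, by rw [S.orderOf_h, hl], ?_⟩,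
    fun φ h2 hn => absurd (inn S h2) hn, .inl (cen S)⟩
  · rintro rfl
    rw [Nat.card_units, Nat.card_eq_fintype_card] at hd
    exact (Nat.not_even_iff_odd.2 (odd_q_sub_one F)) (even_iff_two_dvd.2 hd)
  · exact (S.u_inj.1 e).2.symm
  · rw [S.u_zero_mul, S.u_zero_mul, add_comm]
  · obtain ⟨g, rfl⟩ := S.exists_conj_involution (sq_of_ord ha) (ne_of_ord ha)
    obtain ⟨g', rfl⟩ := S.exists_conj_involution (sq_of_ord hb) (ne_of_ord hb)
    exact isConj_iff.2 ⟨g' * g⁻¹, by group⟩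
  · obtain ⟨g, hg⟩ := S.exists_conj_Z_mem (sq_of_ord ha)
    rw [(S.conj g).centralizer_eq_U hg (ne_of_ord ha)]
    exact (S.conj g).isPGroup_U
  · rw [S.normalizer_U]
    exact S.H_le_B (S.mem_H.2 ⟨l, rfl⟩)

theorem not_two_gen {R : Type*} [Group R] (f : R →* L) (hf : ∀ x, f x ∈ S.U)
    (hs : ∀ a : F, ∃ x, f x = S.u a 0) {x y : R} (h : closure {x, y} = ⊤) : False := by
  classical
  obtain ⟨a, b, hx⟩ := S.mem_U.1 (hf x)
  obtain ⟨c, d, hy⟩ := S.mem_U.1 (hf y)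
  have two : (2 : F) = 0 := CharTwo.two_eq_zero
  have key : ∀ t ∈ closure ({x, y} : Set R), ∃ e ∈ ({0, a, c, a + c} : Finset F), ∃ e',
      f t = S.u e e' := fun t ht => by
    induction ht using closure_induction with
    | mem t ht =>
      rcases ht with rfl | rfl
      · exact ⟨a, by simp, b, hx⟩
      · exact ⟨c, by simp, d, hy⟩
    | one => exact ⟨0, by simp, 0, by rw [map_one, S.u_zero]⟩
    | mul s t _ _ hs ht =>
      obtain ⟨e, he, e', h1⟩ := hs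
      obtain ⟨g, hg, g', h2⟩ := ht
      refine ⟨e + g, ?_, _, by rw [map_mul, h1, h2, S.u_mul]⟩
      simp only [Finset.mem_insert, Finset.mem_singleton] at he hg ⊢
      rcases he with rfl | rfl | rfl | rfl <;> rcases hg with rfl | rfl | rfl | rfl <;>
        grind
    | inv t _ ht =>
      obtain ⟨e, he, e', h1⟩ := ht
      exact ⟨e, he, _, by rw [map_inv, h1, S.u_inv]⟩
  have hu : (Finset.univ : Finset F) ⊆ {0, a, c, a + c} := fun e _ => by
    obtain ⟨t, ht⟩ := hs e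
    obtain ⟨e', he, _, h1⟩ := key t (h ▸ mem_top t)
    rwa [(S.u_inj.1 (ht.symm.trans h1)).1]
  have h1 := (Finset.card_le_card hu).trans Finset.card_le_four
  rw [Finset.card_univ, hz.hF] at h1
  have : 2 ^ 3 ≤ 2 ^ (2 * m + 1) := Nat.pow_le_pow_right two_pos (by have := hz.hm; omega)
  omega

end ThS

theorem th_sz {L : Type*} [Group L] (h : Lie.IsoSuzuki L) : (∃ r, Th r L) ∧ Cen L := by
  obtain ⟨F, _, _, m, _, ⟨S⟩⟩ := ThS.model h
  exact ⟨ThS.th S, ThS.cen S⟩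

theorem rank_cover {L : Type*} [Group L] [Finite L] (hZ : IsPGroup 2 (center L))
    (h : Lie.IsoSuzuki (L ⧸ center L)) : PRankAtLeast 2 2 L := by
  obtain ⟨F, _, _, m, _, ⟨S⟩⟩ := ThS.model h
  by_contra hn
  let π := QuotientGroup.mk' (center L)
  let P := S.U.comap π
  have hP : IsPGroup 2 P := S.isPGroup_U.comap_of_ker_isPGroup π (by
    rw [QuotientGroup.ker_mk']; exact hZ)
  have hr : PRankLE 2 1 P := by
    by_contra h1
    obtain ⟨V, -, hV⟩ := H19.not_pRankLE_two_one_subgroup_iff.1 h1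
    refine hn ⟨V, IsKleinFour.isMulCommutative, fun a ha => ?_, hV.card_four.ge⟩
    have := Monoid.pow_exponent_eq_one (⟨a, ha⟩ : V)
    rw [hV.exponent_two] at this
    exact congrArg Subtype.val this
  obtain ⟨x, y, hxy⟩ := H3.CW.two_gen_of_uniqInv (H3.CW.uniqInv_of_pRankLE hP hr) hP
  refine ThS.not_two_gen S (π.comp P.subtype) (fun t => t.2) (fun a => ?_) hxy
  obtain ⟨t, ht⟩ := QuotientGroup.mk'_surjective (center L) (S.u a 0)
  exact ⟨⟨t, show π t ∈ S.U from ht ▸ S.u_mem_U a 0⟩, ht⟩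

end H4.Q16
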